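import Mathlib
import Cfsg.Agent.Lib.AschF.Perp
import Cfsg.Agent.Lib.AschF.OddE
import Cfsg.Agent.Lib.Geo.SUGen
import Cfsg.Agent.Lib.Witt.HermModel
import Cfsg.Agent.Lib.Geo.UnitaryInSL
import Cfsg.Agent.S0752

/-!
# Unitary groups: basic facts on the field and the forms
-/

set_option autoImplicit false

namespace Cfsg.Agent.Lib.AschU.Base

open Matrix Module Cfsg Cfsg.Geo
open Cfsg.Agent.Lib.Asch.Forms Cfsg.Agent.Lib.AschF.Adj Cfsg.Agent.Lib.AschF.Cliff Cfsg.Agent.Lib.AschF.Perp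
open Cfsg.Agent.Lib.Geo.SUGen (frobEquiv frobEquiv_apply hermForm_isUnitary)

universe u

variable {F : Type u} [Field F] [Fintype F] {q : ℕ}

/-- The structure of the standard form. -/
theorem hf_herm (n : ℕ) (hF : Fintype.card F = q ^ 2) : HF (frobEquiv hF) 1 (hermForm n F q) := by
  have h := hermForm_isUnitary n hF
  refine ⟨Cfsg.Agent.Lib.AschF.OddE.sesq_of_unitary h, h.nondegenerate, fun u v => ?_, h.involutive⟩
  rw [one_mul]
  exact h.herm v u

theorem sigma_ne (hF : Fintype.card F = q ^ 2) : frobEquiv hF ≠ RingEquiv.refl F :=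
  (hermForm_isUnitary 0 hF).ne_refl

theorem sigma_sigma (hF : Fintype.card F = q ^ 2) (a : F) : frobEquiv hF (frobEquiv hF a) = a :=
  (hermForm_isUnitary 0 hF).involutive a

/-- Forms with `ε = 1` are unitary forms. -/
theorem pow_of_HF {κ : Type} [Fintype κ] [DecidableEq κ] (hF : Fintype.card F = q ^ 2) {A : (κ → F) → (κ → F) → F}
    (hA : HF (frobEquiv hF) 1 A) : IsUnitaryFormPow q A where
  add_left := hA.sesq.add_left
  smul_left := hA.sesq.smul_left
  herm := fun v w => by
    rw [hA.herm w v, one_mul]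
    rfl
  nondegenerate := hA.nd

/-- The norm of `ε`. -/
theorem eps_norm {κ : Type} [Fintype κ] [DecidableEq κ] [Nonempty κ] {σ : F ≃+* F} {ε : F} {A : (κ → F) → (κ → F) → F}
    (hA : HF σ ε A) : ε * σ ε = 1 := by
  obtain ⟨i⟩ := ‹Nonempty κ›
  have hv : (Pi.single i 1 : κ → F) ≠ 0 := by
    intro h0
    have := congrFun h0 i
    simp at this
  obtain ⟨⟨u, hu⟩, -⟩ := hA.nd _ hv
  set v : κ → F := Pi.single i 1
  have h1 := hA.herm u v
  have h3 := hA.herm v u
  rw [h1, map_mul, hA.invol] at h3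
  have h4 : (ε * σ ε - 1) * A u v = 0 := by linear_combination -h3
  exact sub_eq_zero.1 ((mul_eq_zero.1 h4).resolve_right hu)

/-- Rescaling an `ε`-Hermitian form. -/
theorem exists_rescale {κ : Type} [Fintype κ] [DecidableEq κ] [Nonempty κ] {σ : F ≃+* F} {ε : F} (hσ : σ ≠ RingEquiv.refl F)
    {A : (κ → F) → (κ → F) → F} (hA : HF σ ε A) :
    ∃ w : F, w ≠ 0 ∧ σ w = ε * w ∧ HF σ 1 (fun x y => w * A x y) := by
  obtain ⟨y, hy0, hy⟩ := Cfsg.Agent.Lib.Geo.UnitaryInSL.hilbert90 σ hσ hA.invol ε (eps_norm hA)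
  have hw0 : σ y ≠ 0 := by
    intro h
    apply hy0
    rw [hy, h, mul_zero]
  have hw : σ (σ y) = ε * σ y := by
    rw [hA.invol]
    exact hy
  refine ⟨σ y, hw0, hw, ⟨fun a b v => ?_, fun c a v => ?_, fun v a b => ?_, fun c v a => ?_⟩, fun v hv => ?_, fun u v => ?_, hA.invol⟩
  · simp only [hA.sesq.add_left]
    ring
  · simp only [hA.sesq.smul_left]
    ring
  · simp only [hA.sesq.add_right]
    ring
  · simp only [hA.sesq.smul_right]
    ring
  · obtain ⟨⟨a, ha⟩, ⟨b, hb⟩⟩ := hA.nd v hv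
    exact ⟨⟨a, mul_ne_zero hw0 ha⟩, ⟨b, mul_ne_zero hw0 hb⟩⟩
  · rw [hA.herm u v, map_mul, hw]
    ring

/-- The model of a unitary form in coordinates. -/
theorem exists_isometry_std {a : ℕ} (hF : Fintype.card F = q ^ 2) {A : (Fin a → F) → (Fin a → F) → F}
    (hA : HF (frobEquiv hF) 1 A) : ∃ g : GL (Fin a) F, ∀ x y, A ((g : Matrix (Fin a) (Fin a) F) *ᵥ x) ((g : Matrix (Fin a) (Fin a) F) *ᵥ y) =
      hermForm a F q x y := by
  classical
  have S : Cfsg.Agent.Lib.HermCount.Space.HSpace q A := by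
    refine ⟨hA.sesq.add_left, hA.sesq.smul_left, fun x y => ?_, fun x hx => ?_⟩
    · rw [hA.herm x y, one_mul]
      rfl
    · exact hA.eq_zero_of_left hx
  obtain ⟨ψ, hψ⟩ := Cfsg.Agent.Lib.Witt.HermModel.exists_model S hF a (by simp)
  refine ⟨Cfsg.Agent.Lib.Classical.MatrixBridge.glToLin.symm ψ, fun x y => ?_⟩
  rw [Cfsg.Agent.Lib.Classical.MatrixBridge.glToLin_symm_mulVec, Cfsg.Agent.Lib.Classical.MatrixBridge.glToLin_symm_mulVec, hψ]

/-- Square roots of the order. -/
theorem exists_prime_pow (hF : Fintype.card F = q ^ 2) :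
    ∃ p e : ℕ, p.Prime ∧ CharP F p ∧ q = p ^ e ∧ 0 < e := by
  obtain ⟨p, hp⟩ := CharP.exists F
  obtain ⟨n, hpp, hcard⟩ := FiniteField.card F p
  have hq : q ∣ p ^ (n : ℕ) := by
    rw [← hcard, hF]
    exact dvd_pow_self q two_ne_zero
  obtain ⟨j, -, rfl⟩ := (Nat.dvd_prime_pow hpp).mp hq
  refine ⟨p, j, hpp, hp, rfl, ?_⟩
  rcases Nat.eq_zero_or_pos j with rfl | h
  · have := Cfsg.Agent.Lib.HermCount.Field.two_le hF
    simp at this
  · exact h

theorem two_eq_zero_iff (hF : Fintype.card F = q ^ 2) : (2 : F) = 0 ↔ Even q := by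
  obtain ⟨p, e, hp, hc, rfl, he⟩ := exists_prime_pow hF
  haveI := hc
  constructor
  · intro h
    have h3 : ((2 : ℕ) : F) = 0 := by exact_mod_cast h
    have h4 := (CharP.cast_eq_zero_iff F p 2).1 h3
    have h6 : p = 2 := (Nat.prime_dvd_prime_iff_eq hp Nat.prime_two).1 h4
    rw [h6]
    exact (Nat.even_pow.2 ⟨even_two, he.ne'⟩)
  · intro h
    have h1 : Even p := (Nat.even_pow.1 h).1
    have h6 : p = 2 := (Nat.Prime.even_iff hp).1 h1
    subst h6
    exact_mod_cast CharP.cast_eq_zero F 2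

/-- Elements of a subfield of index two. -/
theorem fix_of_index_two (hF : Fintype.card F = q ^ 2) {F₁ : Subfield F} (hc : Fintype.card F = Nat.card F₁ ^ 2) (x : F) :
    x ∈ F₁ ↔ x ^ q = x := by
  classical
  have hq2 := Cfsg.Agent.Lib.HermCount.Field.two_le hF
  have hcard : Nat.card F₁ = q := by
    rw [hF] at hc
    exact (Nat.pow_left_injective (n := 2) (by norm_num) hc).symm
  haveI : Fintype F₁ := Fintype.ofFinite _
  have hfor : ∀ y : F, y ∈ F₁ → y ^ q = y := by
    intro y hy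
    have h1 := FiniteField.pow_card (⟨y, hy⟩ : F₁)
    rw [← Nat.card_eq_fintype_card, hcard] at h1
    exact congrArg Subtype.val h1
  refine ⟨hfor x, fun hx => ?_⟩
  let S : Finset F := ((Polynomial.X ^ q - Polynomial.X : Polynomial F).roots).toFinset
  have hne := FiniteField.X_pow_card_sub_X_ne_zero F (p := q) (by omega)
  have hmem : ∀ y : F, y ∈ S ↔ y ^ q = y := by
    intro y
    simp only [S]
    rw [Multiset.mem_toFinset, Polynomial.mem_roots hne]
    simp [Polynomial.IsRoot, sub_eq_zero]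
  have hS : S.card ≤ q := by
    refine (Multiset.toFinset_card_le _).trans ((Polynomial.card_roots' _).trans ?_)
    rw [FiniteField.X_pow_card_sub_X_natDegree_eq F (by omega)]
  let T : Finset F := (Finset.univ : Finset F₁).image Subtype.val
  have hTS : T ⊆ S := by
    intro y hy
    obtain ⟨z, -, rfl⟩ := Finset.mem_image.1 hy
    exact (hmem _).2 (hfor _ z.2)
  have hT : T.card = q := by
    simp only [T]
    rw [Finset.card_image_of_injective _ Subtype.val_injective, Finset.card_univ, ← Nat.card_eq_fintype_card, hcard]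
  have hEq := Finset.eq_of_subset_of_card_le hTS (by rw [hT]; exact hS)
  have hxS : x ∈ S := (hmem x).2 hx
  rw [← hEq] at hxS
  obtain ⟨z, -, rfl⟩ := Finset.mem_image.1 hxS
  exact z.2

/-- Matrices with zero diagonal and skew symmetric are invertible only in even size. -/
theorem even_of_alt {n : ℕ} (A : Matrix (Fin n) (Fin n) F) (h0 : ∀ i, A i i = 0) (hs : ∀ i j, A j i = - A i j)
    (hnd : ∀ x : Fin n → F, (∀ y : Fin n → F, x ⬝ᵥ (A *ᵥ y) = 0) → x = 0) : Even n := by
  classical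
  let C : LinearMap.BilinForm F (Fin n → F) := Matrix.toBilin' A
  have hC : ∀ x y, C x y = x ⬝ᵥ (A *ᵥ y) := by
    intro x y
    simp only [C]
    rw [Matrix.toBilin'_apply']
  have halt : C.IsAlt := by
    intro x
    rw [hC]
    simp only [dotProduct, Matrix.mulVec, Finset.mul_sum]
    rw [← Finset.sum_product']
    refine Finset.sum_involution (fun p _ => (p.2, p.1)) ?_ ?_ ?_ ?_
    · rintro ⟨i, j⟩ _
      simp only
      rw [hs i j]
      ring
    · rintro ⟨i, j⟩ _ hne heq
      apply hne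
      have hij : i = j := (Prod.ext_iff.1 heq).2
      subst hij
      simp [h0]
    · rintro ⟨i, j⟩ _
      simp
    · rintro ⟨i, j⟩ _
      rfl
  obtain ⟨m', k', b, -, -, -, h4⟩ := Cfsg.Agent.S0752.result C halt
  have hk : k' = 0 := by
    by_contra hne
    have hpos : 0 < k' := Nat.pos_of_ne_zero hne
    let j : Fin k' := ⟨0, hpos⟩
    have h5 : b (Sum.inr j) = 0 := hnd _ fun y => by
      rw [← hC]
      exact h4 j y
    exact b.ne_zero _ h5
  subst hk
  have h1 := Module.finrank_eq_card_basis b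
  simp only [Fintype.card_sum, Fintype.card_fin, finrank_fintype_fun_eq_card] at h1
  exact ⟨m', by omega⟩

/-- Sums of symmetric families in characteristic two. -/
theorem sum_symm_char2 {κ : Type*} (h2 : (2 : F) = 0) (t : κ → κ → F) (hs : ∀ i j, t i j = t j i) (s : Finset κ) :
    ∑ i ∈ s, ∑ j ∈ s, t i j = ∑ i ∈ s, t i i := by
  classical
  induction s using Finset.induction_on with
  | empty => simp
  | insert a s ha ih =>
    rw [Finset.sum_insert ha, Finset.sum_insert ha, Finset.sum_insert ha]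
    have h3 : ∑ x ∈ s, ∑ j ∈ insert a s, t x j = ∑ x ∈ s, t x a + ∑ x ∈ s, ∑ j ∈ s, t x j := by
      rw [← Finset.sum_add_distrib]
      refine Finset.sum_congr rfl fun x _ => ?_
      rw [Finset.sum_insert ha]
    rw [h3, ih]
    have h4 : ∑ x ∈ s, t a x + ∑ x ∈ s, t x a = 0 := by
      rw [← Finset.sum_add_distrib]
      refine Finset.sum_eq_zero fun x _ => ?_
      rw [hs x a, ← two_mul, h2, zero_mul]
    linear_combination h4

end Cfsg.Agent.Lib.AschU.Base
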