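import Mathlib
import Cfsg.Agent.Lib.AschU.Base

/-!
# The quadratic extension of the field with `q²` elements has no involution over `x ↦ x^q`
-/

set_option autoImplicit false

namespace Cfsg.Agent.Lib.AschU.Fld

open Matrix Module Cfsg Cfsg.Geo
open Cfsg.Agent.Lib.Asch.Forms Cfsg.Agent.Lib.AschF.Adj
open Cfsg.Agent.Lib.AschU.Base
open Cfsg.Agent.Lib.Geo.SUGen (frobEquiv frobEquiv_apply hermForm_isUnitary)

universe u v

variable {F : Type u} [Field F] [Fintype F] {q : ℕ}

/-- The abstract statement. -/
theorem no_invol {K : Type v} [Field K] [Finite K] [Algebra F K] (hr : finrank F K = 2) (hF : Fintype.card F = q ^ 2)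
    (θ : K →+* K) (hθ : ∀ x, θ (θ x) = x) (hθF : ∀ c : F, θ (algebraMap F K c) = algebraMap F K (c ^ q)) : False := by
  classical
  haveI : Fintype K := Fintype.ofFinite K
  obtain ⟨p, e, hp, hcp, hqe, he⟩ := exists_prime_pow hF
  haveI : Fact p.Prime := ⟨hp⟩
  haveI : CharP K p := charP_of_injective_algebraMap (algebraMap F K).injective p
  have hq2 : 2 ≤ q := Cfsg.Agent.Lib.HermCount.Field.two_le hF
  have hcard : Fintype.card K = q ^ 4 := by
    rw [Module.card_eq_pow_finrank (K := F) (V := K), hr, hF]
    ring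
  have hpow4 : ∀ x : K, x ^ (q ^ 4) = x := fun x => by
    rw [← hcard]
    exact FiniteField.pow_card x
  have hpowF : ∀ c : F, c ^ (q ^ 2) = c := fun c => by
    rw [← hF]
    exact FiniteField.pow_card c
  let ρ : K →+* K := iterateFrobenius K p e
  have hρ : ∀ x, ρ x = x ^ q := fun x => by
    rw [hqe]
    exact iterateFrobenius_def p e x
  -- a non-rational element
  obtain ⟨x, hx⟩ : ∃ x : K, x ∉ Set.range (algebraMap F K) := by
    by_contra hcon
    push Not at hcon
    have hb : Function.Bijective (algebraMap F K) := ⟨(algebraMap F K).injective, fun y => hcon y⟩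
    have h1 := Fintype.card_of_bijective hb
    rw [hF, hcard] at h1
    have h2 : q ^ 2 < q ^ 4 := Nat.pow_lt_pow_right (by omega) (by norm_num)
    omega
  -- the quadratic equation
  let T : (F × F) →ₗ[F] K :=
    { toFun := fun a => a.1 • x + a.2 • (1 : K)
      map_add' := fun a b => by simp only [Prod.fst_add, Prod.snd_add, add_smul]; abel
      map_smul' := fun c a => by simp only [Prod.smul_fst, Prod.smul_snd, smul_eq_mul, mul_smul, smul_add, RingHom.id_apply] }
  have hTinj : Function.Injective T := by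
    rw [← LinearMap.ker_eq_bot, LinearMap.ker_eq_bot']
    rintro ⟨b, c⟩ hT
    have hT' : b • x + c • (1 : K) = 0 := hT
    have hb : b = 0 := by
      by_contra hb
      apply hx
      refine ⟨-(c / b), ?_⟩
      rw [Algebra.smul_def, Algebra.smul_def, mul_one] at hT'
      have hb' : algebraMap F K b ≠ 0 := fun h => hb ((algebraMap F K).injective (by rw [h, map_zero]))
      rw [map_neg, map_div₀]
      rw [neg_eq_iff_eq_neg, div_eq_iff hb']
      linear_combination hT'
    subst hb
    rw [zero_smul, zero_add, Algebra.smul_def, mul_one] at hT'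
    have hc : c = 0 := (algebraMap F K).injective (by rw [hT', map_zero])
    rw [hc]
    rfl
  have hfin : FiniteDimensional F K := Module.Finite.of_finite
  have hTsurj : Function.Surjective T := by
    refine (LinearMap.injective_iff_surjective_of_finrank_eq_finrank ?_).1 hTinj
    rw [hr, Module.finrank_prod, Module.finrank_self]
  obtain ⟨⟨b, c⟩, hbc⟩ := hTsurj (x ^ 2)
  have hbc' : x ^ 2 = algebraMap F K b * x + algebraMap F K c := by
    have : b • x + c • (1 : K) = x ^ 2 := hbc
    rw [← this, Algebra.smul_def, Algebra.smul_def, mul_one]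
  -- images
  have h1 : (x ^ q) ^ 2 = algebraMap F K (b ^ q) * x ^ q + algebraMap F K (c ^ q) := by
    have := congrArg ρ hbc'
    rw [map_pow, map_add, map_mul, hρ, hρ, hρ] at this
    rw [map_pow, map_pow]
    exact this
  have h3 : (x ^ (q ^ 3)) ^ 2 = algebraMap F K (b ^ q) * x ^ (q ^ 3) + algebraMap F K (c ^ q) := by
    have h4 : ∀ a : F, algebraMap F K a ^ (q ^ 3) = algebraMap F K (a ^ q) := fun a => by
      rw [← map_pow]
      congr 1
      have : q ^ 3 = q ^ 2 * q := by ring
      rw [this, pow_mul, hpowF]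
    have h5 : ∀ y : K, ((ρ.comp ρ).comp ρ) y = y ^ (q ^ 3) := fun y => by
      simp only [RingHom.comp_apply, hρ]
      rw [← pow_mul, ← pow_mul]
      congr 1
      ring
    have := congrArg ((ρ.comp ρ).comp ρ) hbc'
    rw [map_pow, map_add, map_mul, h5, h5, h5, h4, h4] at this
    exact this
  have hz : (θ x) ^ 2 = algebraMap F K (b ^ q) * θ x + algebraMap F K (c ^ q) := by
    have := congrArg θ hbc'
    rw [map_pow, map_add, map_mul, hθF, hθF] at this
    exact this
  -- `x` is not fixed by the square of the Frobenius map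
  have hne2 : x ^ (q ^ 2) ≠ x := by
    intro h
    let S : Finset K := insert x (Finset.univ.image (algebraMap F K))
    have hS : S.card = q ^ 2 + 1 := by
      rw [Finset.card_insert_of_notMem, Finset.card_image_of_injective _ (algebraMap F K).injective, Finset.card_univ, hF]
      intro hmem
      obtain ⟨c, -, hc⟩ := Finset.mem_image.1 hmem
      exact hx ⟨c, hc⟩
    have hqq : 1 < q ^ 2 := Nat.one_lt_pow (by norm_num) (by omega)
    have hsub : S.val ⊆ (Polynomial.X ^ (q ^ 2) - Polynomial.X : Polynomial K).roots := by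
      intro y hy
      rw [Polynomial.mem_roots (FiniteField.X_pow_card_sub_X_ne_zero K hqq)]
      have hy1 : y ∈ S := hy
      simp only [Polynomial.IsRoot, Polynomial.eval_sub, Polynomial.eval_pow, Polynomial.eval_X]
      rcases Finset.mem_insert.1 hy1 with rfl | hy2
      · rw [h, sub_self]
      · obtain ⟨c, -, rfl⟩ := Finset.mem_image.1 hy2
        rw [← map_pow, hpowF, sub_self]
    have h4 := Polynomial.card_le_degree_of_subset_roots hsub
    rw [hS, FiniteField.X_pow_card_sub_X_natDegree_eq K hqq] at h4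
    omega
  have hne : x ^ q ≠ x ^ (q ^ 3) := by
    intro h
    apply hne2
    have h4 : (x ^ q) ^ (q ^ 3) = (x ^ (q ^ 3)) ^ (q ^ 3) := by rw [← h]
    rw [← pow_mul, ← pow_mul] at h4
    have h5 : q * q ^ 3 = q ^ 4 := by ring
    have h6 : q ^ 3 * q ^ 3 = q ^ 4 * q ^ 2 := by ring
    rw [h5, h6, pow_mul, hpow4] at h4
    exact h4.symm
  -- the Vieta relations
  have hsum : algebraMap F K (b ^ q) = x ^ q + x ^ (q ^ 3) := by
    have h4 : (x ^ q - x ^ (q ^ 3)) * (x ^ q + x ^ (q ^ 3) - algebraMap F K (b ^ q)) = 0 := by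
      linear_combination h1 - h3
    rcases mul_eq_zero.1 h4 with h5 | h5
    · exact absurd (sub_eq_zero.1 h5) hne
    · linear_combination -h5
  have hfac : (θ x - x ^ q) * (θ x - x ^ (q ^ 3)) = 0 := by
    rw [hsum] at h1 hz
    linear_combination hz - h1
  have hρz : ∀ y : K, θ (y ^ q) = (θ y) ^ q := fun y => map_pow θ y q
  rcases mul_eq_zero.1 hfac with h4 | h4
  · have h5 := sub_eq_zero.1 h4
    have h6 := hθ x
    rw [h5, map_pow, h5, ← pow_mul] at h6
    apply hne2
    rw [pow_two]
    exact h6
  · have h5 := sub_eq_zero.1 h4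
    have h6 := hθ x
    rw [h5, map_pow, h5, ← pow_mul] at h6
    apply hne2
    have h7 : q ^ 3 * q ^ 3 = q ^ 4 * q ^ 2 := by ring
    rw [h7, pow_mul, hpow4] at h6
    exact h6

/-- No field of degree two is closed under adjoints. -/
theorem no_fld_two {n : ℕ} (hF : Fintype.card F = q ^ 2) (hn : 0 < n) (K : Subalgebra F (Matrix (Fin n) (Fin n) F))
    (hK : IsFieldSubalgebra 2 K) (hadj : IsAdjointClosedFor (hermForm n F q) K) : False := by
  classical
  haveI : Nonempty (Fin n) := ⟨⟨0, hn⟩⟩
  have hf := hf_herm n hF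
  letI fK : Field K := (Cfsg.Agent.Lib.AschF.OddB.isField_K hK).toField
  haveI hfinM : Finite (Matrix (Fin n) (Fin n) F) := inferInstanceAs (Finite (Fin n → Fin n → F))
  haveI hfinK : Finite K := Finite.of_injective (fun k : K => (k : Matrix (Fin n) (Fin n) F)) Subtype.val_injective
  have hmem : ∀ k ∈ K, Ad (frobEquiv hF) (hermForm n F q) k ∈ K := by
    intro k hk
    obtain ⟨k', hk', h⟩ := hadj k hk
    rw [← ad_unique hf h]
    exact hk'
  let θ : K →+* K :=
    { toFun := fun k => ⟨Ad (frobEquiv hF) (hermForm n F q) k, hmem k k.2⟩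
      map_one' := Subtype.ext (ad_one hf)
      map_zero' := Subtype.ext (ad_zero hf)
      map_add' := fun x y => Subtype.ext (ad_add hf _ _)
      map_mul' := fun x y => by
        apply Subtype.ext
        change Ad (frobEquiv hF) (hermForm n F q) ((x : Matrix (Fin n) (Fin n) F) * y) =
          Ad (frobEquiv hF) (hermForm n F q) x * Ad (frobEquiv hF) (hermForm n F q) y
        rw [ad_mul hf, hK.comm _ (hmem y y.2) _ (hmem x x.2)] }
  refine no_invol (F := F) (K := K) hK.finrank_eq hF θ (fun x => Subtype.ext (ad_ad hf _)) fun c => ?_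
  apply Subtype.ext
  change Ad (frobEquiv hF) (hermForm n F q) (algebraMap F (Matrix (Fin n) (Fin n) F) c) = algebraMap F (Matrix (Fin n) (Fin n) F) (c ^ q)
  rw [Algebra.algebraMap_eq_smul_one, ad_smul hf, ad_one hf, Algebra.algebraMap_eq_smul_one]
  congr 1
  apply (frobEquiv hF).injective
  rw [RingEquiv.apply_symm_apply, frobEquiv_apply, Cfsg.Agent.Lib.HermCount.Field.frob_frob hF]

end Cfsg.Agent.Lib.AschU.Fld
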