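import Mathlib
import Cfsg.Agent.Lib.AschU.Base
import Cfsg.Agent.Lib.Asch.XT

/-!
# The group of order 27 in the three dimensional unitary group over the field with four elements
-/

set_option autoImplicit false

namespace Cfsg.Agent.Lib.AschU.Heis

open Matrix Module Cfsg Cfsg.Geo
open Cfsg.Agent.Lib.Asch.Forms Cfsg.Agent.Lib.Asch.SC

universe u

variable {F : Type u} [Field F]

/-- Monomial matrices with a cyclic permutation. -/
def amat (s : Fin 3) (d : Fin 3 → F) : Matrix (Fin 3) (Fin 3) F := fun i j => if i = j + s then d j else 0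

theorem amat_apply (s : Fin 3) (d : Fin 3 → F) (i j : Fin 3) : amat s d i j = if i = j + s then d j else 0 := rfl

theorem amat_mul (s s' : Fin 3) (d d' : Fin 3 → F) : amat s d * amat s' d' = amat (s' + s) (fun j => d (j + s') * d' j) := by
  ext i j
  rw [Matrix.mul_apply, Finset.sum_eq_single (j + s')]
  · simp only [amat_apply, if_true]
    rw [add_assoc]
    split_ifs <;> simp
  · intro l _ hl
    simp only [amat_apply]
    rw [if_neg hl, mul_zero]
  · intro h
    exact absurd (Finset.mem_univ _) h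

theorem amat_zero_one : amat 0 (fun _ => (1 : F)) = 1 := by
  ext i j
  simp [amat_apply, Matrix.one_apply]

theorem amat_mulVec (s : Fin 3) (d : Fin 3 → F) (v : Fin 3 → F) (j : Fin 3) : (amat s d *ᵥ v) (j + s) = d j * v j := by
  simp only [Matrix.mulVec, dotProduct, amat_apply]
  rw [Finset.sum_eq_single j]
  · rw [if_pos rfl]
  · intro l _ hl
    rw [if_neg (fun h => hl (add_right_cancel h).symm), zero_mul]
  · intro h
    exact absurd (Finset.mem_univ _) h

theorem sss : ∀ s : Fin 3, s + s + s = 0 := by decide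

theorem amat_cube {s : Fin 3} {d : Fin 3 → F} (hd : d 0 * d 1 * d 2 = 1) (h3 : ∀ j, d j ^ 3 = 1) :
    amat s d * (amat s d * amat s d) = 1 := by
  rw [amat_mul, amat_mul, sss, ← amat_zero_one]
  congr 1
  funext j
  fin_cases s <;> fin_cases j <;> simp <;>
    first
      | linear_combination h3 0
      | linear_combination h3 1
      | linear_combination h3 2
      | linear_combination hd

/-- The group. -/
def monGrp (F : Type u) [Field F] : Subgroup (GL (Fin 3) F) where
  carrier := {g | ∃ (s : Fin 3) (d : Fin 3 → F), d 0 * d 1 * d 2 = 1 ∧ (∀ j, d j ^ 3 = 1) ∧ (g : Matrix (Fin 3) (Fin 3) F) = amat s d}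
  mul_mem' := by
    rintro a b ⟨s, d, hd, h3, ha⟩ ⟨s', d', hd', h3', hb⟩
    refine ⟨s' + s, fun j => d (j + s') * d' j, ?_, fun j => ?_, ?_⟩
    · have h1 : ∀ s' : Fin 3, d (0 + s') * d (1 + s') * d (2 + s') = 1 := by
        intro s'
        fin_cases s' <;> simp <;>
          first
            | linear_combination hd
      have h2 := h1 s'
      simp only
      linear_combination (d' 0 * d' 1 * d' 2) * h2 + hd'
    · rw [mul_pow, h3, h3', one_mul]
    · rw [Units.val_mul, ha, hb, amat_mul]
  one_mem' := ⟨0, fun _ => 1, by ring, fun _ => by ring, by rw [Units.val_one, amat_zero_one]⟩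
  inv_mem' := by
    rintro a ⟨s, d, hd, h3, ha⟩
    have h1 : a⁻¹ = a * a := by
      rw [inv_eq_iff_mul_eq_one]
      apply Units.ext
      rw [Units.val_mul, Units.val_mul, ha, Units.val_one]
      exact amat_cube hd h3
    rw [h1]
    refine ⟨s + s, fun j => d (j + s) * d j, ?_, fun j => ?_, ?_⟩
    · have h2 : ∀ s' : Fin 3, d (0 + s') * d (1 + s') * d (2 + s') = 1 := by
        intro s'
        fin_cases s' <;> simp <;>
          first
            | linear_combination hd
      simp only
      linear_combination (d 0 * d 1 * d 2) * h2 s + hd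
    · rw [mul_pow, h3, h3, one_mul]
    · rw [Units.val_mul, ha, amat_mul]

theorem mem_monGrp {g : GL (Fin 3) F} : g ∈ monGrp F ↔
    ∃ (s : Fin 3) (d : Fin 3 → F), d 0 * d 1 * d 2 = 1 ∧ (∀ j, d j ^ 3 = 1) ∧ (g : Matrix (Fin 3) (Fin 3) F) = amat s d := Iff.rfl

theorem mon_cube {g : GL (Fin 3) F} (hg : g ∈ monGrp F) : g ^ 3 = 1 := by
  obtain ⟨s, d, hd, h3, ha⟩ := hg
  apply Units.ext
  rw [Units.val_pow_eq_pow_val, ha, Units.val_one, pow_succ, pow_two, mul_assoc]
  exact amat_cube hd h3

/-- Elements of the group from the data. -/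
def monMk (s : Fin 3) (d : Fin 3 → F) (hd : d 0 * d 1 * d 2 = 1) (h3 : ∀ j, d j ^ 3 = 1) : GL (Fin 3) F where
  val := amat s d
  inv := amat s d * amat s d
  val_inv := amat_cube hd h3
  inv_val := by
    rw [mul_assoc]
    exact amat_cube hd h3

theorem monMk_mem (s : Fin 3) (d : Fin 3 → F) (hd : d 0 * d 1 * d 2 = 1) (h3 : ∀ j, d j ^ 3 = 1) : monMk s d hd h3 ∈ monGrp F :=
  ⟨s, d, hd, h3, rfl⟩

/-- Relations between the entries. -/
theorem affine {d : Fin 3 → F} (hd : d 0 * d 1 * d 2 = 1) (h3 : ∀ j, d j ^ 3 = 1) (i j s : Fin 3) :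
    d (i + s) * d j = d (j + s) * d i := by
  have hne : ∀ j, d j ≠ 0 := by
    intro j h0
    have := h3 j
    rw [h0] at this
    simp at this
  have r0 : d 0 * d 0 = d 1 * d 2 := by
    apply mul_left_cancel₀ (hne 0)
    linear_combination h3 0 - hd
  have r1 : d 1 * d 1 = d 0 * d 2 := by
    apply mul_left_cancel₀ (hne 1)
    linear_combination h3 1 - hd
  have r2 : d 2 * d 2 = d 0 * d 1 := by
    apply mul_left_cancel₀ (hne 2)
    linear_combination h3 2 - hd
  fin_cases i <;> fin_cases j <;> fin_cases s <;> simp <;>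
    first
      | ring1
      | linear_combination r0
      | linear_combination r1
      | linear_combination r2
      | linear_combination -r0
      | linear_combination -r1
      | linear_combination -r2

/-- Commutators are scalars. -/
theorem mon_scC : ScC (monGrp F) := by
  rintro a ⟨s, d, hd, h3, ha⟩ b ⟨s', d', hd', h3', hb⟩
  have hne : ∀ (e : Fin 3 → F), (∀ j, e j ^ 3 = 1) → ∀ j, e j ≠ 0 := by
    intro e he j h0
    have := he j
    rw [h0] at this
    simp at this
  refine ⟨d (0 + s') * d' 0 / (d' (0 + s) * d 0), ?_⟩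
  rw [ha, hb, amat_mul, amat_mul, add_comm s' s]
  ext i j
  simp only [Matrix.smul_apply, amat_apply, smul_eq_mul]
  by_cases h : i = j + (s + s')
  · rw [if_pos h, if_pos h]
    have h1 := affine hd h3 j 0 s'
    have h2 := affine hd' h3' j 0 s
    have hn1 := hne d h3
    have hn2 := hne d' h3'
    rw [div_mul_eq_mul_div, eq_div_iff (mul_ne_zero (hn2 _) (hn1 _))]
    linear_combination (d' j * d' (0 + s)) * h1 - (d (0 + s') * d j) * h2
  · rw [if_neg h, if_neg h, mul_zero]

section Four

variable [Fintype F]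

theorem cube_of_ne (h4 : Fintype.card F = 4) {x : F} (hx : x ≠ 0) : x ^ 3 = 1 := by
  have := FiniteField.pow_card_sub_one_eq_one x hx
  rwa [h4] at this

theorem two_zero (h4 : Fintype.card F = 4) : (2 : F) = 0 :=
  (Cfsg.Agent.Lib.AschU.Base.two_eq_zero_iff (q := 2) (by rw [h4]; norm_num)).2 even_two

theorem mu3 (h4 : Fintype.card F = 4) {a b c : F} (ha : a ≠ 0) (hb : b ≠ 0) (habc : a * b * c = 1) : (a = b ∧ b = c) ∨ a + b + c = 0 := by
  have h2 := two_zero h4
  have ha3 := cube_of_ne h4 ha
  have hb3 := cube_of_ne h4 hb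
  by_cases hab : a = b
  · subst hab
    left
    refine ⟨rfl, ?_⟩
    apply mul_left_cancel₀ (pow_ne_zero 2 ha)
    linear_combination ha3 - habc
  · right
    have hs : a + b ≠ 0 := by
      intro h0
      apply hab
      linear_combination h0 - b * h2
    have h3 := cube_of_ne h4 hs
    have h5 : a * b * (a + b) = 1 := by
      linear_combination h3 - ha3 - hb3 - (1 + a * b * (a + b)) * h2
    have h6 : a + b = c := by
      apply mul_left_cancel₀ (mul_ne_zero ha hb)
      rw [h5, habc]
    rw [← h6]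
    linear_combination (a + b) * h2

theorem mu3' (h4 : Fintype.card F = 4) {a b c : F} (ha : a ≠ 0) (hb : b ≠ 0) (hc : c ≠ 0) (hs : a + b + c = 0) : a * b * c = 1 := by
  have h2 := two_zero h4
  have ha3 := cube_of_ne h4 ha
  have hb3 := cube_of_ne h4 hb
  have hc3 := cube_of_ne h4 hc
  have h6 : c = a + b := by
    linear_combination hs - (a + b) * h2
  subst h6
  linear_combination hc3 - ha3 - hb3 - (1 + a * b * (a + b)) * h2

theorem weight (h4 : Fintype.card F = 4) {v : Fin 3 → F} (hv : v 0 ^ 3 + v 1 ^ 3 + v 2 ^ 3 = 1) :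
    (∀ i, v i ≠ 0) ∨ ∃ b, ∀ i, i ≠ b → v i = 0 := by
  have h2 := two_zero h4
  have hone : (1 : F) ≠ 0 := one_ne_zero
  by_cases h0 : v 0 = 0 <;> by_cases h1 : v 1 = 0 <;> by_cases h3 : v 2 = 0
  · rw [h0, h1, h3] at hv
    simp at hv
  · right
    refine ⟨2, fun i hi => ?_⟩
    fin_cases i
    · exact h0
    · exact h1
    · exact absurd rfl hi
  · right
    refine ⟨1, fun i hi => ?_⟩
    fin_cases i
    · exact h0
    · exact absurd rfl hi
    · exact h3
  · exfalso
    rw [h0, cube_of_ne h4 h1, cube_of_ne h4 h3] at hv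
    apply hone
    linear_combination -hv + h2
  · right
    refine ⟨0, fun i hi => ?_⟩
    fin_cases i
    · exact absurd rfl hi
    · exact h1
    · exact h3
  · exfalso
    rw [h1, cube_of_ne h4 h0, cube_of_ne h4 h3] at hv
    apply hone
    linear_combination -hv + h2
  · exfalso
    rw [h3, cube_of_ne h4 h0, cube_of_ne h4 h1] at hv
    apply hone
    linear_combination -hv + h2
  · left
    intro i
    fin_cases i
    · exact h0
    · exact h1
    · exact h3

theorem herm_self (v : Fin 3 → F) : hermForm 3 F 2 v v = v 0 ^ 3 + v 1 ^ 3 + v 2 ^ 3 := by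
  simp only [hermForm, Fin.sum_univ_three]
  ring

theorem herm_amat (s : Fin 3) (d : Fin 3 → F) (x y : Fin 3 → F) :
    hermForm 3 F 2 (amat s d *ᵥ x) y = ∑ j, d j * x j * y (j + s) ^ 2 := by
  simp only [hermForm]
  rw [← Equiv.sum_comp (Equiv.addRight s)]
  refine Finset.sum_congr rfl fun j _ => ?_
  simp only [Equiv.coe_addRight]
  rw [amat_mulVec]

/-- The property characterising the group. -/
def PP (g : Matrix (Fin 3) (Fin 3) F) : Prop :=
  ∀ v : Fin 3 → F, hermForm 3 F 2 v v = 1 → hermForm 3 F 2 (g *ᵥ v) v = 0 ∨ ∃ c : F, g *ᵥ v = c • v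

theorem mon_PP (h4 : Fintype.card F = 4) {g : GL (Fin 3) F} (hg : g ∈ monGrp F) : PP (g : Matrix (Fin 3) (Fin 3) F) := by
  obtain ⟨s, d, hd, h3, ha⟩ := hg
  rw [ha]
  intro v hv
  rw [herm_self] at hv
  have hdne : ∀ j, d j ≠ 0 := by
    intro j h0
    have := h3 j
    rw [h0] at this
    simp at this
  rcases weight h4 hv with hall | ⟨b, hb⟩
  · have hv3 : ∀ j, v j ^ 3 = 1 := fun j => cube_of_ne h4 (hall j)
    let x : Fin 3 → F := fun j => d j * v j * v (j + s) ^ 2
    have hx : ∀ j, x j * v (j + s) = d j * v j := by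
      intro j
      simp only [x]
      linear_combination (d j * v j) * hv3 (j + s)
    have hxne : ∀ j, x j ≠ 0 := fun j => mul_ne_zero (mul_ne_zero (hdne j) (hall j)) (pow_ne_zero _ (hall _))
    have hprod : x 0 * x 1 * x 2 = 1 := by
      have h1 : v (0 + s) * v (1 + s) * v (2 + s) = v 0 * v 1 * v 2 := by
        fin_cases s <;> simp <;> ring
      have h5 : x 0 * x 1 * x 2 = (d 0 * d 1 * d 2) * (v 0 * v 1 * v 2) * (v (0 + s) * v (1 + s) * v (2 + s)) ^ 2 := by
        simp only [x]
        ring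
      rw [h5, h1, hd, one_mul]
      linear_combination (v 0 ^ 3 * v 1 ^ 3) * hv3 2 + (v 0 ^ 3) * hv3 1 + hv3 0
    rcases mu3 h4 (hxne 0) (hxne 1) hprod with ⟨h01, h12⟩ | hsum
    · right
      refine ⟨x 0, ?_⟩
      have hconst : ∀ j, x j = x 0 := by
        intro j
        fin_cases j
        · rfl
        · exact h01.symm
        · exact (h01.trans h12).symm
      funext i
      have h1 := amat_mulVec s d v (i - s)
      rw [sub_add_cancel] at h1
      rw [h1, Pi.smul_apply, smul_eq_mul, ← hx (i - s), sub_add_cancel, hconst]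
    · left
      rw [herm_amat, Fin.sum_univ_three]
      exact hsum
  · by_cases hs : s = 0
    · subst hs
      right
      refine ⟨d b, ?_⟩
      funext i
      have h1 := amat_mulVec 0 d v i
      rw [add_zero] at h1
      rw [h1, Pi.smul_apply, smul_eq_mul]
      by_cases hib : i = b
      · rw [hib]
      · rw [hb i hib, mul_zero, mul_zero]
    · left
      rw [herm_amat]
      refine Finset.sum_eq_zero fun j _ => ?_
      by_cases hjb : j = b
      · have : j + s ≠ b := by
          rw [hjb]
          intro h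
          apply hs
          have := add_eq_left.1 h
          exact this
        rw [hb _ this]
        ring
      · rw [hb j hjb]
        ring

theorem herm_single (i j : Fin 3) : hermForm 3 F 2 (Pi.single i 1) (Pi.single j 1) = if i = j then 1 else 0 := by
  simp only [hermForm, Pi.single_apply]
  fin_cases i <;> fin_cases j <;> simp [Fin.sum_univ_three]

theorem PP_mon (h4 : Fintype.card F = 4) (g : GL (Fin 3) F) (hu : ∀ x y, hermForm 3 F 2 ((g : Matrix (Fin 3) (Fin 3) F) *ᵥ x) ((g : Matrix (Fin 3) (Fin 3) F) *ᵥ y) = hermForm 3 F 2 x y)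
    (hg3 : g ^ 3 = 1) (hP : PP (g : Matrix (Fin 3) (Fin 3) F)) : g ∈ monGrp F := by
  classical
  have h2 := two_zero h4
  set G : Matrix (Fin 3) (Fin 3) F := (g : Matrix (Fin 3) (Fin 3) F) with hG
  have hcol : ∀ j, G *ᵥ Pi.single j 1 = fun i => G i j := by
    intro j
    funext i
    rw [Matrix.mulVec_single_one]
    rfl
  have hcunit : ∀ j, G 0 j ^ 3 + G 1 j ^ 3 + G 2 j ^ 3 = 1 := by
    intro j
    have h1 := hu (Pi.single j 1) (Pi.single j 1)
    rw [herm_single, if_pos rfl, hcol, herm_self] at h1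
    exact h1
  have hsingle : ∀ j, ∃ b, ∀ i, i ≠ b → G i j = 0 := by
    intro j
    rcases weight h4 (v := fun i => G i j) (hcunit j) with hall | hs
    · exfalso
      have hunit : hermForm 3 F 2 (Pi.single j 1) (Pi.single j 1) = 1 := by
        rw [herm_single, if_pos rfl]
      rcases hP _ hunit with h0 | ⟨c, hc⟩
      · have h1 : hermForm 3 F 2 (G *ᵥ Pi.single j 1) (Pi.single j 1) = G j j := by
          rw [hcol]
          simp only [hermForm, Pi.single_apply]
          rw [Finset.sum_eq_single j]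
          · simp
          · intro b _ hb
            rw [if_neg hb]
            simp
          · intro hj
            exact absurd (Finset.mem_univ _) hj
        rw [h1] at h0
        exact hall j h0
      · obtain ⟨i, hij⟩ : ∃ i : Fin 3, i ≠ j := by
          have key : ∀ j : Fin 3, ∃ i : Fin 3, i ≠ j := by decide
          exact key j
        have h1 := congrFun hc i
        rw [hcol] at h1
        simp only [Pi.smul_apply, smul_eq_mul, Pi.single_apply, if_neg hij, mul_zero] at h1
        exact hall i h1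
    · obtain ⟨b, hb⟩ := hs
      exact ⟨b, fun i hi => hb i hi⟩
  choose π hπ using hsingle
  have hπne : ∀ j, G (π j) j ≠ 0 := by
    intro j h0
    have h1 := hcunit j
    have h3 : ∀ i, G i j = 0 := by
      intro i
      by_cases hi : i = π j
      · rw [hi, h0]
      · exact hπ j i hi
    rw [h3, h3, h3] at h1
    simp at h1
  have hcolsum : ∀ j, G *ᵥ Pi.single j 1 = G (π j) j • (Pi.single (π j) 1 : Fin 3 → F) := by
    intro j
    rw [hcol]
    funext i
    simp only [Pi.smul_apply, smul_eq_mul, Pi.single_apply]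
    by_cases hi : i = π j
    · rw [if_pos hi, hi, mul_one]
    · rw [if_neg hi, mul_zero, hπ j i hi]
  have hinj : Function.Injective π := by
    intro j j' hjj
    by_contra hne
    have h1 := hu (Pi.single j 1) (Pi.single j' 1)
    rw [herm_single, if_neg hne, hcolsum, hcolsum] at h1
    have hS := (Cfsg.Agent.Lib.AschU.Base.hf_herm (q := 2) 3 (by rw [h4]; norm_num)).sesq
    rw [hS.smul_left, hS.smul_right, herm_single, if_pos hjj, mul_one, Cfsg.Agent.Lib.Geo.SUGen.frobEquiv_apply] at h1
    rcases mul_eq_zero.1 h1 with h5 | h5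
    · exact hπne j h5
    · exact hπne j' (pow_eq_zero_iff (by norm_num) |>.1 h5)
  have hG3 : G * (G * G) = 1 := by
    have := congrArg Units.val hg3
    rw [Units.val_pow_eq_pow_val, Units.val_one, pow_succ, pow_two, mul_assoc] at this
    exact this
  have hπ3 : ∀ j, π (π (π j)) = j := by
    intro j
    by_contra hne
    have h1 : (G * (G * G)) *ᵥ Pi.single j 1 = Pi.single j 1 := by
      rw [hG3, Matrix.one_mulVec]
    simp only [← Matrix.mulVec_mulVec] at h1
    rw [hcolsum, Matrix.mulVec_smul, hcolsum, Matrix.mulVec_smul, Matrix.mulVec_smul, hcolsum] at h1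
    have h5 := congrFun h1 (π (π (π j)))
    simp only [Pi.smul_apply, smul_eq_mul, Pi.single_apply, if_true, mul_one, if_neg hne] at h5
    exact mul_ne_zero (hπne j) (mul_ne_zero (hπne _) (hπne _)) h5
  obtain ⟨s, hs⟩ : ∃ s : Fin 3, ∀ j, π j = j + s := by
    have key : ∀ π : Fin 3 → Fin 3, Function.Injective π → (∀ j, π (π (π j)) = j) → ∃ s, ∀ j, π j = j + s := by decide
    exact key π hinj hπ3
  let d : Fin 3 → F := fun j => G (j + s) j
  have hGa : G = amat s d := by
    ext i j
    simp only [amat_apply, d]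
    by_cases hi : i = j + s
    · rw [if_pos hi, hi]
    · rw [if_neg hi, hπ j i (by rw [hs]; exact hi)]
  have hdne : ∀ j, d j ≠ 0 := by
    intro j
    simp only [d]
    rw [← hs]
    exact hπne j
  have hd3 : ∀ j, d j ^ 3 = 1 := fun j => cube_of_ne h4 (hdne j)
  refine ⟨s, d, ?_, hd3, hGa⟩
  by_cases hs0 : s = 0
  · subst hs0
    let v : Fin 3 → F := fun _ => 1
    have hv : hermForm 3 F 2 v v = 1 := by
      rw [herm_self]
      simp only [v, one_pow]
      linear_combination h2
    have hval : ∀ j, (G *ᵥ v) j = d j := by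
      intro j
      rw [hGa]
      have := amat_mulVec 0 d v j
      rw [add_zero] at this
      rw [this]
      simp [v]
    rcases hP v hv with h0 | ⟨c, hc⟩
    · rw [hGa, herm_amat, Fin.sum_univ_three] at h0
      simp only [v, mul_one, one_pow] at h0
      exact mu3' h4 (hdne 0) (hdne 1) (hdne 2) h0
    · have hdc : ∀ j, d j = c := by
        intro j
        rw [← hval, hc]
        simp [v]
      rw [hdc, hdc, hdc]
      have := hd3 0
      rw [hdc] at this
      linear_combination this
  · have h5 := hG3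
    rw [hGa, amat_mul, amat_mul, sss] at h5
    have h6 := congrFun (congrFun h5 0) 0
    rw [amat_apply, if_pos (by simp), Matrix.one_apply_eq] at h6
    have hs12 : ∀ s : Fin 3, s ≠ 0 → s = 1 ∨ s = 2 := by decide
    rcases hs12 s hs0 with rfl | rfl
    · simp at h6
      linear_combination h6
    · simp at h6
      linear_combination h6

theorem mon_unitary {g : GL (Fin 3) F} (hg : g ∈ monGrp F) (x y : Fin 3 → F) :
    hermForm 3 F 2 ((g : Matrix (Fin 3) (Fin 3) F) *ᵥ x) ((g : Matrix (Fin 3) (Fin 3) F) *ᵥ y) = hermForm 3 F 2 x y := by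
  obtain ⟨s, d, hd, h3, ha⟩ := hg
  rw [ha, herm_amat]
  simp only [hermForm]
  refine Finset.sum_congr rfl fun j _ => ?_
  rw [amat_mulVec]
  linear_combination (x j * y j ^ 2) * h3 j

/-- The group is normalised by the unitary group. -/
theorem mon_normal (h4 : Fintype.card F = 4) {t : GL (Fin 3) F} (ht : ∀ x y, hermForm 3 F 2 ((t : Matrix (Fin 3) (Fin 3) F) *ᵥ x) ((t : Matrix (Fin 3) (Fin 3) F) *ᵥ y) = hermForm 3 F 2 x y)
    {g : GL (Fin 3) F} (hg : g ∈ monGrp F) : t * g * t⁻¹ ∈ monGrp F := by
  have hti : ∀ x, (t : Matrix (Fin 3) (Fin 3) F) *ᵥ (((t⁻¹ : GL (Fin 3) F) : Matrix (Fin 3) (Fin 3) F) *ᵥ x) = x := fun x =>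
    Cfsg.Agent.Lib.Geo.Basic.mulVec_inv_mulVec t x
  have hval : ∀ x, ((t * g * t⁻¹ : GL (Fin 3) F) : Matrix (Fin 3) (Fin 3) F) *ᵥ x =
      (t : Matrix (Fin 3) (Fin 3) F) *ᵥ ((g : Matrix (Fin 3) (Fin 3) F) *ᵥ (((t⁻¹ : GL (Fin 3) F) : Matrix (Fin 3) (Fin 3) F) *ᵥ x)) := by
    intro x
    simp only [Units.val_mul, Matrix.mulVec_mulVec, mul_assoc]
  refine PP_mon h4 _ (fun x y => ?_) ?_ ?_
  · rw [hval, hval, ht, mon_unitary hg, ← ht, hti, hti]
  · rw [conj_pow, mon_cube hg]
    simp
  · intro v hv
    set w : Fin 3 → F := ((t⁻¹ : GL (Fin 3) F) : Matrix (Fin 3) (Fin 3) F) *ᵥ v with hw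
    have hv' : v = (t : Matrix (Fin 3) (Fin 3) F) *ᵥ w := (hti v).symm
    have hwu : hermForm 3 F 2 w w = 1 := by
      rw [← ht, ← hv', hv]
    rw [hval, ← hw]
    rcases mon_PP h4 hg w hwu with h0 | ⟨c, hc⟩
    · left
      have h1 : hermForm 3 F 2 ((t : Matrix (Fin 3) (Fin 3) F) *ᵥ ((g : Matrix (Fin 3) (Fin 3) F) *ᵥ w)) ((t : Matrix (Fin 3) (Fin 3) F) *ᵥ w) = 0 := by
        rw [ht]
        exact h0
      rwa [← hv'] at h1
    · right
      refine ⟨c, ?_⟩
      rw [hc, Matrix.mulVec_smul, ← hv']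

end Four

end Cfsg.Agent.Lib.AschU.Heis
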