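import Mathlib
import Cfsg.Agent.Lib.AschU.Base

/-!
# Unitary groups: the data of being in no class, irreducibility and the subfield groups
-/

set_option autoImplicit false

namespace Cfsg.Agent.Lib.AschU.Sub

open Matrix Module Cfsg Cfsg.Geo
open Cfsg.Agent.Lib.Asch.Forms Cfsg.Agent.Lib.AschF.Adj Cfsg.Agent.Lib.AschF.Cliff Cfsg.Agent.Lib.AschF.Perp
open Cfsg.Agent.Lib.AschU.Base
open Cfsg.Agent.Lib.Geo.SUGen (frobEquiv frobEquiv_apply hermForm_isUnitary)
open Cfsg.Agent.Lib.Geo.Basic (mem_GU_iff mem_subspaceStabilizer_iff_forall_mem mem_subspaceStabilizer_iff_map_eq inv_mulVec_mulVec mulVec_inv_mulVec)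

universe u

variable {F : Type u} [Field F] [Fintype F] {q n : ℕ}

/-- The data of being in no class, unitary case. -/
structure UNoClass (n : ℕ) (F : Type u) [Field F] [Fintype F] (q : ℕ) (H : Subgroup (GL (Fin n) F)) : Prop where
  ts : ∀ W : Submodule F (Fin n → F), W ≠ ⊥ → IsTotallySingularFor (hermForm n F q) W → H ≤ subspaceStabilizer W → False
  nd : ∀ W : Submodule F (Fin n → F), W ≠ ⊥ → IsNondegenerateOn (hermForm n F q) W → 2 * finrank F W < n → H ≤ subspaceStabilizer W → False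
  dec : ∀ (t k : ℕ) (D : Fin t → Submodule F (Fin n → F)), IsNondegenerateMDecomposition (hermForm n F q) k D →
    H ≤ decompositionStabilizer D → False
  pair : ∀ (k : ℕ) (D : Fin 2 → Submodule F (Fin n → F)), 2 * k = n → IsMDecomposition k D →
    (∀ i, IsTotallySingularFor (hermForm n F q) (D i)) → H ≤ decompositionStabilizer D → False
  sub₁ : ∀ (F₀ : Subfield F) (r : ℕ) (P : GL (Fin n) F), r.Prime → Odd r → Fintype.card F = Nat.card F₀ ^ r →
    IsFormRationalStructure (hermForm n F q) F₀ 1 P → H ≤ subfieldSubgroup F₀ P → False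
  sub₂ : ∀ (F₀ : Subfield F) (P : GL (Fin n) F), Odd q → Fintype.card F = Nat.card F₀ ^ 2 →
    IsFormRationalStructure (hermForm n F q) F₀ 1 P → H ≤ subfieldSubgroup F₀ P → False
  sub₃ : ∀ (F₀ : Subfield F) (P : GL (Fin n) F) (ζ : F), Even n → Fintype.card F = Nat.card F₀ ^ 2 → ζ ≠ 0 →
    ζ + ζ ^ q = 0 → IsFormRationalStructure (hermForm n F q) F₀ ζ P →
    (∀ u : Fin n → F, (∀ i, u i ∈ F₀) → hermForm n F q ((P : Matrix (Fin n) (Fin n) F) *ᵥ u) ((P : Matrix (Fin n) (Fin n) F) *ᵥ u) = 0) →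
    H ≤ subfieldSubgroup F₀ P → False
  cl6 : ∀ (r : ℕ) (R : Subgroup (GL (Fin n) F)) (p e k : ℕ), IsSymplecticTypeGroup r R →
    ActsAbsolutelyIrreducibly (matrixSet R) → R ≤ similarityGroup (hermForm n F q) → r ≠ p →
    IsMinimalFieldFor (Nat.card (Subgroup.center R)) p e F →
    ((Odd r ∧ Nat.card (Subgroup.center R) = r ∧ 1 ≤ k ∧ Nat.card R = r ^ (1 + 2 * k)) ∨
       (r = 2 ∧ e = 2 ∧ Nat.card (Subgroup.center R) = 4 ∧ Nat.card R = 2 ^ (2 + 2 * k))) →
    H ≤ subgroupNormalizer R → False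
  fld : ∀ (r : ℕ) (K : Subalgebra F (Matrix (Fin n) (Fin n) F)), r.Prime → Odd r → IsFieldSubalgebra r K →
    IsAdjointClosedFor (hermForm n F q) K → H ≤ subalgebraNormalizer K → False
  ten : ∀ (n₁ n₂ : ℕ) (e : Fin n ≃ Fin n₁ × Fin n₂) (P : GL (Fin n) F)
    (f₁ : (Fin n₁ → F) → (Fin n₁ → F) → F) (f₂ : (Fin n₂ → F) → (Fin n₂ → F) → F),
    2 ≤ n₁ → n₁ < n₂ → IsUnitaryFormPow q f₁ → IsUnitaryFormPow q f₂ →
    IsTensorFormStructure (fun x : F => x ^ q) (hermForm n F q) f₁ f₂ e P → H ≤ tensorProductSubgroup n₁ n₂ e P → False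
  wr : ∀ (k t : ℕ) (e : Fin n ≃ (Fin t → Fin k)) (P : GL (Fin n) F) (f₁ : (Fin k → F) → (Fin k → F) → F),
    3 ≤ k → 2 ≤ t → ¬ (q = 2 ∧ k = 3) → IsUnitaryFormPow q f₁ →
    IsTensorPowerFormStructure (fun x : F => x ^ q) (hermForm n F q) f₁ e P → H ≤ tensorWreathSubgroup k t e P → False

/-- Irreducibility. -/
theorem irr_of_noclass (hF : Fintype.card F = q ^ 2) {H : Subgroup (GL (Fin n) F)} (hH : H ≤ GU n F q) (hNo : UNoClass n F q H) :
    ActsIrreducibly (matrixSet H) := by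
  classical
  have hf := hf_herm n hF
  have hfix : ∀ g ∈ H, ∀ u v, hermForm n F q ((g : Matrix (Fin n) (Fin n) F) *ᵥ u) ((g : Matrix (Fin n) (Fin n) F) *ᵥ v) = hermForm n F q u v :=
    fun g hg u v => (mem_GU_iff n q g).1 (hH hg) u v
  intro W hW
  have hinv : ∀ g ∈ H, ∀ v ∈ W, (g : Matrix (Fin n) (Fin n) F) *ᵥ v ∈ W := by
    intro g hg v hv
    exact hW _ ⟨g, hg, rfl⟩ ⟨v, hv, rfl⟩
  by_contra hcon
  push Not at hcon
  obtain ⟨hW0, hW1⟩ := hcon
  rcases reducible_cases hf H hfix hinv with ⟨W', hW', hts, hinv'⟩ | hnd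
  · exact hNo.ts W' hW' hts fun g hg => (mem_subspaceStabilizer_iff_forall_mem W' g).2 (hinv' g hg)
  have hstab : H ≤ subspaceStabilizer W := fun g hg => (mem_subspaceStabilizer_iff_forall_mem W g).2 (hinv g hg)
  obtain ⟨hc, hr⟩ := perp_compl hf hnd
  rw [Fintype.card_fin] at hr
  have hpinv := perp_inv hf.sesq H hfix hinv
  have hstabp : H ≤ subspaceStabilizer (perp hf.sesq W) := fun g hg =>
    (mem_subspaceStabilizer_iff_forall_mem _ g).2 (hpinv g hg)
  rcases lt_trichotomy (2 * finrank F W) n with h | h | h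
  · exact hNo.nd W hW0 hnd h hstab
  · refine hNo.dec 2 _ _ (dec_of_half hf hnd hW0 (by rw [Fintype.card_fin]; exact h)) fun g hg => ⟨1, fun i => ?_⟩
    fin_cases i
    · exact (mem_subspaceStabilizer_iff_map_eq W g).1 (hstab hg)
    · exact (mem_subspaceStabilizer_iff_map_eq _ g).1 (hstabp hg)
  · refine hNo.nd _ ?_ (perp_nd hf hnd) (by omega) hstabp
    intro h0
    rw [h0, finrank_bot, add_zero] at hr
    apply hW1
    apply Submodule.eq_top_of_finrank_eq
    rw [hr]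
    simp

theorem mulVec_eq_sum_single {κ : Type} [Fintype κ] [DecidableEq κ] (P : Matrix κ κ F) (u : κ → F) :
    P *ᵥ u = ∑ j, u j • (P *ᵥ Pi.single j 1) := by
  conv_lhs => rw [sum_single u]
  rw [Matrix.mulVec_sum]
  exact Finset.sum_congr rfl fun j _ => Matrix.mulVec_smul _ _ _

/-- A pair of basis vectors with non-zero value. -/
theorem exists_pair_ne (hF : Fintype.card F = q ^ 2) (hn : 0 < n) (P : GL (Fin n) F) :
    ∃ i j : Fin n, hermForm n F q ((P : Matrix (Fin n) (Fin n) F) *ᵥ Pi.single i 1) ((P : Matrix (Fin n) (Fin n) F) *ᵥ Pi.single j 1) ≠ 0 := by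
  classical
  have hf := hf_herm n hF
  let i₀ : Fin n := ⟨0, hn⟩
  have hv : (P : Matrix (Fin n) (Fin n) F) *ᵥ Pi.single i₀ 1 ≠ 0 := by
    intro h0
    have h1 := congrArg (fun w => ((P⁻¹ : GL (Fin n) F) : Matrix (Fin n) (Fin n) F) *ᵥ w) h0
    simp only [inv_mulVec_mulVec, Matrix.mulVec_zero] at h1
    have := congrFun h1 i₀
    simp at this
  obtain ⟨⟨x, hx⟩, -⟩ := hf.nd _ hv
  have h1 : x = ∑ j, (((P⁻¹ : GL (Fin n) F) : Matrix (Fin n) (Fin n) F) *ᵥ x) j • ((P : Matrix (Fin n) (Fin n) F) *ᵥ Pi.single j 1) := by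
    rw [← mulVec_eq_sum_single, mulVec_inv_mulVec]
  rw [h1, Sesq_sum_left hf.sesq] at hx
  obtain ⟨j, -, hj⟩ := Finset.exists_ne_zero_of_sum_ne_zero hx
  rw [hf.sesq.smul_left] at hj
  exact ⟨j, i₀, right_ne_zero_of_mul hj⟩

/-- The multiplier of `ζ`. -/
theorem rho_mem (hF : Fintype.card F = q ^ 2) (hn : 0 < n) (F₁ : Subfield F) (P : GL (Fin n) F) {ζ : F} (hζ : ζ ≠ 0)
    (hrat : IsFormRationalStructure (hermForm n F q) F₁ ζ P) : ζ ^ q / ζ ∈ F₁ := by
  classical
  have hf := hf_herm n hF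
  obtain ⟨i, j, hij⟩ := exists_pair_ne hF hn P
  have hs : ∀ c d : Fin n, (Pi.single c (1 : F) : Fin n → F) d ∈ F₁ := fun c d => Cfsg.Agent.Lib.Geo.RatStruct.isRat_single c d
  set a := hermForm n F q ((P : Matrix (Fin n) (Fin n) F) *ᵥ Pi.single i 1) ((P : Matrix (Fin n) (Fin n) F) *ᵥ Pi.single j 1) with ha
  have h1 : ζ * a ∈ F₁ := hrat _ _ (hs i) (hs j)
  have h2 : ζ * a ^ q ∈ F₁ := by
    have h3 := hrat _ _ (hs j) (hs i)
    rw [hf.herm ((P : Matrix (Fin n) (Fin n) F) *ᵥ Pi.single i 1), one_mul, frobEquiv_apply, ← ha] at h3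
    exact h3
  have h3 : (ζ * a) ^ q ∈ F₁ := F₁.pow_mem h1 q
  have haq : a ^ q ≠ 0 := pow_ne_zero _ hij
  have h4 := F₁.div_mem h3 h2
  have h5 : (ζ * a) ^ q / (ζ * a ^ q) = ζ ^ q / ζ := by
    rw [mul_pow]
    field_simp
  rwa [h5] at h4

/-- For a subfield of odd prime index the Frobenius does not fix the subfield. -/
theorem frob_ne_of_odd (hF : Fintype.card F = q ^ 2) {F₁ : Subfield F} {s : ℕ} (hs : s.Prime) (hodd : Odd s)
    (hc : Fintype.card F = Nat.card F₁ ^ s) : ∃ x ∈ F₁, x ^ q ≠ x := by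
  classical
  by_contra hcon
  push Not at hcon
  let τ : F ≃ₐ[F₁] F := AlgEquiv.ofRingEquiv (f := frobEquiv hF) (fun r => by
    change frobEquiv hF (r : F) = r
    rw [frobEquiv_apply]
    exact hcon _ r.2)
  have hτ : ∀ x, τ x = x ^ q := fun x => rfl
  have h2 : τ ^ 2 = 1 := by
    ext x
    rw [pow_two, AlgEquiv.mul_apply, hτ, hτ, AlgEquiv.one_apply]
    exact Cfsg.Agent.Lib.HermCount.Field.frob_frob hF x
  have hfr : finrank F₁ F = s := by
    have h1 := Module.natCard_eq_pow_finrank (K := F₁) (V := F)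
    rw [Nat.card_eq_fintype_card, hc] at h1
    have h3 : 1 < Nat.card F₁ := Finite.one_lt_card
    exact (Nat.pow_right_injective h3 h1).symm
  have hcardG : Nat.card (F ≃ₐ[F₁] F) = s := by
    rw [IsGalois.card_aut_eq_finrank, hfr]
  haveI : Finite (F ≃ₐ[F₁] F) := Nat.finite_of_card_ne_zero (by rw [hcardG]; exact hs.ne_zero)
  have h3 : τ ^ s = 1 := by
    rw [← hcardG]
    exact pow_card_eq_one'
  obtain ⟨m, hm⟩ := hodd
  have h4 : τ = 1 := by
    rw [hm, pow_succ, pow_mul, h2, one_pow, one_mul] at h3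
    exact h3
  apply sigma_ne hF
  ext x
  have := congrArg (fun t : F ≃ₐ[F₁] F => t x) h4
  exact this

/-- Rescaling the structure for a subfield of odd prime index. -/
theorem exists_scale_odd (hF : Fintype.card F = q ^ 2) (hn : 0 < n) {F₁ : Subfield F} {s : ℕ} (hs : s.Prime) (hodd : Odd s)
    (hc : Fintype.card F = Nat.card F₁ ^ s) (P : GL (Fin n) F) {ζ : F} (hζ : ζ ≠ 0)
    (hrat : IsFormRationalStructure (hermForm n F q) F₁ ζ P) :
    ∃ l : F, l ≠ 0 ∧ ∀ u v : Fin n → F, (∀ i, u i ∈ F₁) → (∀ i, v i ∈ F₁) →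
      l * l ^ q * hermForm n F q ((P : Matrix (Fin n) (Fin n) F) *ᵥ u) ((P : Matrix (Fin n) (Fin n) F) *ᵥ v) ∈ F₁ := by
  classical
  let σ := frobEquiv hF
  have hσ : ∀ x, σ x = x ^ q := fun x => rfl
  have hinv := sigma_sigma hF
  have hρ := rho_mem hF hn F₁ P hζ hrat
  set ρ := ζ ^ q / ζ with hρd
  have hσF : ∀ x ∈ F₁, σ x ∈ F₁ := fun x hx => by
    rw [hσ]
    exact F₁.pow_mem hx q
  let σ₁ : F₁ ≃+* F₁ :=
    { toFun := fun x => ⟨σ x, hσF x x.2⟩
      invFun := fun x => ⟨σ x, hσF x x.2⟩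
      left_inv := fun x => Subtype.ext (hinv x)
      right_inv := fun x => Subtype.ext (hinv x)
      map_mul' := fun x y => Subtype.ext (map_mul σ (x : F) (y : F))
      map_add' := fun x y => Subtype.ext (map_add σ (x : F) (y : F)) }
  have hσ₁ : ∀ x : F₁, ((σ₁ x : F₁) : F) = σ x := fun _ => rfl
  have hne : σ₁ ≠ RingEquiv.refl F₁ := by
    obtain ⟨x, hx, hxq⟩ := frob_ne_of_odd hF hs hodd hc
    intro h
    apply hxq
    have h1 := congrArg (fun t : F₁ ≃+* F₁ => ((t ⟨x, hx⟩ : F₁) : F)) h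
    exact h1
  have hρσ : ρ * σ ρ = 1 := by
    rw [hρd, map_div₀, hσ ζ, hσ (ζ ^ q)]
    have h1 : (ζ ^ q) ^ q = ζ := Cfsg.Agent.Lib.HermCount.Field.frob_frob hF ζ
    rw [h1]
    have h3 : ζ ^ q ≠ 0 := pow_ne_zero _ hζ
    field_simp
  obtain ⟨y, hy0, hy⟩ := Cfsg.Agent.Lib.Geo.UnitaryInSL.hilbert90 σ₁ hne (fun a => Subtype.ext (hinv a)) ⟨ρ, hρ⟩
    (Subtype.ext hρσ)
  -- `w = σ y`
  have hy' : (y : F) = ρ * σ y := congrArg Subtype.val hy
  have hy00 : (y : F) ≠ 0 := fun h => hy0 (Subtype.ext h)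
  let w : F := σ y
  have hw0 : w ≠ 0 := by
    intro h
    apply hy00
    have h' : σ (y : F) = 0 := h
    rw [hy', h', mul_zero]
  have hwF : w ∈ F₁ := hσF _ y.2
  have hσw : σ w = ρ * w := by
    change σ (σ y) = ρ * σ y
    rw [hinv]
    exact hy'
  let c : F := ζ / w
  have hc0 : c ≠ 0 := div_ne_zero hζ hw0
  have hσc : σ c = c := by
    simp only [c]
    rw [map_div₀, hσw, hσ ζ, hρd]
    field_simp
  obtain ⟨l, hl⟩ := Cfsg.Agent.Lib.Geo.UnitaryInSL.exists_mul_sigma_eq σ (sigma_ne hF) hinv c hσc hc0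
  have hl0 : l ≠ 0 := by
    rintro rfl
    rw [zero_mul] at hl
    exact hc0 hl.symm
  refine ⟨l, hl0, fun u v hu hv => ?_⟩
  have h1 : l * l ^ q = c := hl
  rw [h1]
  have h3 : c * hermForm n F q ((P : Matrix (Fin n) (Fin n) F) *ᵥ u) ((P : Matrix (Fin n) (Fin n) F) *ᵥ v) =
      (ζ * hermForm n F q ((P : Matrix (Fin n) (Fin n) F) *ᵥ u) ((P : Matrix (Fin n) (Fin n) F) *ᵥ v)) / w := by
    simp only [c]
    field_simp
  rw [h3]
  exact F₁.div_mem (hrat u v hu hv) hwF

/-- The form moved by a matrix. -/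
theorem sesq_P (hF : Fintype.card F = q ^ 2) (P : Matrix (Fin n) (Fin n) F) :
    Sesq (frobEquiv hF) (fun u v => hermForm n F q (P *ᵥ u) (P *ᵥ v)) := by
  have hf := (hf_herm n hF).sesq
  refine ⟨fun x y v => ?_, fun c x v => ?_, fun v x y => ?_, fun c v x => ?_⟩
  · simp only [Matrix.mulVec_add, hf.add_left]
  · simp only [Matrix.mulVec_smul, hf.smul_left]
  · simp only [Matrix.mulVec_add, hf.add_right]
  · simp only [Matrix.mulVec_smul, hf.smul_right]

/-- An alternating rational structure lives in even dimension. -/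
theorem even_of_rat_alt (hF : Fintype.card F = q ^ 2) (P : GL (Fin n) F) {F₁ : Subfield F}
    (halt : ∀ u : Fin n → F, (∀ i, u i ∈ F₁) → hermForm n F q ((P : Matrix (Fin n) (Fin n) F) *ᵥ u) ((P : Matrix (Fin n) (Fin n) F) *ᵥ u) = 0) :
    Even n := by
  classical
  have hf := hf_herm n hF
  have hS := sesq_P hF (P : Matrix (Fin n) (Fin n) F)
  set g : (Fin n → F) → (Fin n → F) → F := fun u v => hermForm n F q ((P : Matrix (Fin n) (Fin n) F) *ᵥ u) ((P : Matrix (Fin n) (Fin n) F) *ᵥ v) with hg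
  have hs : ∀ c d : Fin n, (Pi.single c (1 : F) : Fin n → F) d ∈ F₁ := fun c d => Cfsg.Agent.Lib.Geo.RatStruct.isRat_single c d
  refine even_of_alt (gram g) (fun i => halt _ (hs i)) (fun i j => ?_) (fun x hx => ?_)
  · have h1 := halt _ (fun k => F₁.add_mem (hs i k) (hs j k))
    have h2 : g (Pi.single i 1 + Pi.single j 1) (Pi.single i 1 + Pi.single j 1) = 0 := h1
    rw [hS.add_left, hS.add_right, hS.add_right] at h2
    have h3 : g (Pi.single i 1) (Pi.single i 1) = 0 := halt _ (hs i)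
    have h4 : g (Pi.single j 1) (Pi.single j 1) = 0 := halt _ (hs j)
    rw [h3, h4] at h2
    change g (Pi.single j 1) (Pi.single i 1) = - g (Pi.single i 1) (Pi.single j 1)
    linear_combination h2
  · -- non-degeneracy
    have h1 : ∀ v, g x v = 0 := by
      intro v
      rw [eq_gram hS]
      exact hx _
    have h3 : (P : Matrix (Fin n) (Fin n) F) *ᵥ x = 0 := by
      apply hf.eq_zero_of_left
      intro w
      have := h1 (((P⁻¹ : GL (Fin n) F) : Matrix (Fin n) (Fin n) F) *ᵥ w)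
      simp only [hg, mulVec_inv_mulVec] at this
      exact this
    have h4 := congrArg (fun w => ((P⁻¹ : GL (Fin n) F) : Matrix (Fin n) (Fin n) F) *ᵥ w) h3
    simpa only [inv_mulVec_mulVec, Matrix.mulVec_zero] using h4

/-- A symmetric non-alternating rational structure in characteristic two gives an invariant hyperplane. -/
theorem noalt_false (hF : Fintype.card F = q ^ 2) (h2 : (2 : F) = 0) (hn : 2 ≤ n) {H : Subgroup (GL (Fin n) F)} (hH : H ≤ GU n F q)
    (hirr : ActsIrreducibly (matrixSet H)) {F₁ : Subfield F} (hfix : ∀ x, x ∈ F₁ ↔ x ^ q = x) (P : GL (Fin n) F)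
    (hrat : IsFormRationalStructure (hermForm n F q) F₁ 1 P) (hle : H ≤ subfieldSubgroup F₁ P)
    (hnalt : ¬ ∀ u : Fin n → F, (∀ i, u i ∈ F₁) → hermForm n F q ((P : Matrix (Fin n) (Fin n) F) *ᵥ u) ((P : Matrix (Fin n) (Fin n) F) *ᵥ u) = 0) :
    False := by
  classical
  have hf := hf_herm n hF
  have hS := sesq_P hF (P : Matrix (Fin n) (Fin n) F)
  set g : (Fin n → F) → (Fin n → F) → F := fun u v => hermForm n F q ((P : Matrix (Fin n) (Fin n) F) *ᵥ u) ((P : Matrix (Fin n) (Fin n) F) *ᵥ v) with hg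
  have hs : ∀ c d : Fin n, (Pi.single c (1 : F) : Fin n → F) d ∈ F₁ := fun c d => Cfsg.Agent.Lib.Geo.RatStruct.isRat_single c d
  haveI hc2 : CharP F 2 := by
    obtain ⟨p, hp⟩ := CharP.exists F
    have h3 : ((2 : ℕ) : F) = 0 := by exact_mod_cast h2
    have h4 := (CharP.cast_eq_zero_iff F p 2).1 h3
    have h5 : p.Prime := CharP.char_is_prime F p
    have h6 : p = 2 := (Nat.prime_dvd_prime_iff_eq h5 Nat.prime_two).1 h4
    rw [h6] at hp
    exact hp
  have hrc : ringChar F = 2 := ringChar.eq F 2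
  -- the Gram matrix is symmetric on rational vectors
  have hgmem : ∀ i j, g (Pi.single i 1) (Pi.single j 1) ∈ F₁ := by
    intro i j
    have := hrat _ _ (hs i) (hs j)
    rwa [one_mul] at this
  have hgsym : ∀ i j, g (Pi.single i 1) (Pi.single j 1) = g (Pi.single j 1) (Pi.single i 1) := by
    intro i j
    have h1 := hf.herm ((P : Matrix (Fin n) (Fin n) F) *ᵥ Pi.single i 1) ((P : Matrix (Fin n) (Fin n) F) *ᵥ Pi.single j 1)
    rw [one_mul, frobEquiv_apply] at h1
    change g (Pi.single j 1) (Pi.single i 1) = (g (Pi.single i 1) (Pi.single j 1)) ^ q at h1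
    rw [h1, (hfix _).1 (hgmem i j)]
  -- square roots
  have hsq : ∀ x : F, ∃ r : F, x = r * r := fun x => FiniteField.isSquare_of_char_two hrc x
  choose sq hsqd using hsq
  let a : Fin n → F := fun i => sq (g (Pi.single i 1) (Pi.single i 1))
  have ha : ∀ i, a i * a i = g (Pi.single i 1) (Pi.single i 1) := fun i => (hsqd _).symm
  let φ : (Fin n → F) →ₗ[F] F :=
    { toFun := fun x => ∑ i, a i * x i
      map_add' := fun x y => by
        simp only [Pi.add_apply, mul_add, Finset.sum_add_distrib]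
      map_smul' := fun c x => by
        simp only [Pi.smul_apply, smul_eq_mul, RingHom.id_apply, Finset.mul_sum]
        exact Finset.sum_congr rfl fun i _ => by ring }
  have hφa : ∀ x, φ x = ∑ i, a i * x i := fun _ => rfl
  -- the value of `g` on rational vectors
  have hgval : ∀ u : Fin n → F, (∀ i, u i ∈ F₁) → g u u = φ u * φ u := by
    intro u hu
    have h1 : g u u = ∑ i, ∑ j, u i * u j * g (Pi.single i 1) (Pi.single j 1) := by
      conv_lhs => rw [sum_single u]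
      rw [Sesq_sum_left hS]
      refine Finset.sum_congr rfl fun i _ => ?_
      rw [hS.smul_left, Sesq_sum_right hS, Finset.mul_sum]
      refine Finset.sum_congr rfl fun j _ => ?_
      rw [hS.smul_right, frobEquiv_apply, (hfix _).1 (hu j)]
      ring
    rw [h1, sum_symm_char2 h2 (fun i j => u i * u j * g (Pi.single i 1) (Pi.single j 1))
      (fun i j => by rw [hgsym i j]; ring) Finset.univ]
    rw [hφa, ← pow_two, sum_pow_char 2]
    refine Finset.sum_congr rfl fun i _ => ?_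
    rw [← ha i]
    ring
  -- the hyperplane
  let W : Submodule F (Fin n → F) := LinearMap.ker (φ.comp (Matrix.toLin' ((P⁻¹ : GL (Fin n) F) : Matrix (Fin n) (Fin n) F)))
  have hWmem : ∀ v, v ∈ W ↔ φ (((P⁻¹ : GL (Fin n) F) : Matrix (Fin n) (Fin n) F) *ᵥ v) = 0 := by
    intro v
    simp only [W, LinearMap.mem_ker, LinearMap.comp_apply, Matrix.toLin'_apply]
  have hW := hirr W (by
    rintro _ ⟨h, hh, rfl⟩ _ ⟨v, hv, rfl⟩
    rw [Matrix.toLin'_apply, hWmem]
    have hvW := (hWmem v).1 hv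
    obtain ⟨c, hc, hent⟩ := Cfsg.Agent.Lib.Geo.RatStruct.exists_scalar_of_mem (hle hh)
    set N : Matrix (Fin n) (Fin n) F := ((P⁻¹ * h * P : GL (Fin n) F) : Matrix (Fin n) (Fin n) F) with hN
    have hPN : ∀ x, (P : Matrix (Fin n) (Fin n) F) *ᵥ (N *ᵥ x) = (h : Matrix (Fin n) (Fin n) F) *ᵥ ((P : Matrix (Fin n) (Fin n) F) *ᵥ x) := by
      intro x
      simp only [hN, Units.val_mul, Matrix.mulVec_mulVec, ← mul_assoc]
      rw [← Units.val_mul, mul_inv_cancel, Units.val_one, one_mul]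
    have hNrat : ∀ u : Fin n → F, (∀ i, u i ∈ F₁) → ∀ i, (c • (N *ᵥ u)) i ∈ F₁ := by
      intro u hu i
      simp only [Pi.smul_apply, smul_eq_mul, Matrix.mulVec, dotProduct, Finset.mul_sum]
      refine F₁.sum_mem fun j _ => ?_
      rw [← mul_assoc]
      exact F₁.mul_mem (hent i j) (hu j)
    obtain ⟨d, hd⟩ : ∃ d : F, c * c ^ q = d * d := ⟨_, hsqd _⟩
    have hval : ∀ u : Fin n → F, (∀ i, u i ∈ F₁) → φ (c • (N *ᵥ u)) = d * φ u := by
      intro u hu
      have h1 := hgval _ (hNrat u hu)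
      have h3 : g (c • (N *ᵥ u)) (c • (N *ᵥ u)) = c * c ^ q * g u u := by
        rw [hS.smul_left, hS.smul_right, frobEquiv_apply]
        simp only [hg]
        rw [hPN, (mem_GU_iff n q h).1 (hH hh)]
        ring
      rw [h3, hgval u hu, hd] at h1
      have h4 : (φ (c • (N *ᵥ u)) - d * φ u) ^ 2 = 0 := by
        have h5 : (φ (c • (N *ᵥ u)) - d * φ u) ^ 2 = φ (c • (N *ᵥ u)) * φ (c • (N *ᵥ u)) + (d * φ u) * (d * φ u) - 2 * (φ (c • (N *ᵥ u)) * (d * φ u)) := by ring
        rw [h5, h2, zero_mul, sub_zero, ← h1]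
        have h6 : d * d * (φ u * φ u) + d * φ u * (d * φ u) = 2 * (d * d * (φ u * φ u)) := by ring
        rw [h6, h2, zero_mul]
      exact sub_eq_zero.1 (pow_eq_zero_iff (by norm_num) |>.1 h4)
    have hall : ∀ x : Fin n → F, φ (c • (N *ᵥ x)) = d * φ x := by
      intro x
      conv_lhs => rw [sum_single x]
      rw [Matrix.mulVec_sum, Finset.smul_sum, map_sum]
      conv_rhs => rw [sum_single x]
      rw [map_sum, Finset.mul_sum]
      refine Finset.sum_congr rfl fun j _ => ?_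
      rw [Matrix.mulVec_smul, smul_comm, map_smul, hval _ (hs j), map_smul]
      simp only [smul_eq_mul]
      ring
    have h1 : ((P⁻¹ : GL (Fin n) F) : Matrix (Fin n) (Fin n) F) *ᵥ ((h : Matrix (Fin n) (Fin n) F) *ᵥ v) =
        N *ᵥ (((P⁻¹ : GL (Fin n) F) : Matrix (Fin n) (Fin n) F) *ᵥ v) := by
      simp only [hN, Units.val_mul, Matrix.mulVec_mulVec, mul_assoc]
      rw [← Units.val_mul P, mul_inv_cancel, Units.val_one, mul_one]
    rw [h1]
    have h3 := hall (((P⁻¹ : GL (Fin n) F) : Matrix (Fin n) (Fin n) F) *ᵥ v)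
    rw [hvW, mul_zero, map_smul, smul_eq_mul] at h3
    exact (mul_eq_zero.1 h3).resolve_left hc)
  rcases hW with hW | hW
  · -- dimension
    have hinj : Function.Injective (φ.comp (Matrix.toLin' ((P⁻¹ : GL (Fin n) F) : Matrix (Fin n) (Fin n) F))) :=
      LinearMap.ker_eq_bot.1 hW
    have h1 := LinearMap.finrank_le_finrank_of_injective hinj
    simp only [finrank_fintype_fun_eq_card, Fintype.card_fin, finrank_self] at h1
    omega
  · apply hnalt
    intro u hu
    have h1 : (P : Matrix (Fin n) (Fin n) F) *ᵥ u ∈ W := by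
      rw [hW]
      trivial
    rw [hWmem, inv_mulVec_mulVec] at h1
    have := hgval u hu
    rw [h1, mul_zero] at this
    exact this

/-- The subfield groups are excluded. -/
theorem sub_false (hF : Fintype.card F = q ^ 2) (hn : 2 ≤ n) {H : Subgroup (GL (Fin n) F)} (hH : H ≤ GU n F q) (hNo : UNoClass n F q H)
    {F₁ : Subfield F} {s : ℕ} (hs : s.Prime) (hc : Fintype.card F = Nat.card F₁ ^ s) (P : GL (Fin n) F) {ζ : F} (hζ : ζ ≠ 0)
    (hrat : IsFormRationalStructure (hermForm n F q) F₁ ζ P) (hle : H ≤ subfieldSubgroup F₁ P) : False := by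
  classical
  have hf := hf_herm n hF
  rcases hs.eq_two_or_odd' with rfl | hodd
  · have hfix := fix_of_index_two hF hc
    have hρ := rho_mem hF (by omega) F₁ P hζ hrat
    have hζq : ζ ^ q ≠ 0 := pow_ne_zero _ hζ
    have hρ1 : (ζ ^ q / ζ) ^ q = ζ ^ q / ζ := (hfix _).1 hρ
    have hρ2 : (ζ ^ q) * (ζ ^ q) = ζ * ζ := by
      rw [div_pow, Cfsg.Agent.Lib.HermCount.Field.frob_frob hF] at hρ1
      field_simp at hρ1
      linear_combination -hρ1
    have hrat1 : ζ ^ q = ζ → IsFormRationalStructure (hermForm n F q) F₁ 1 P := by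
      intro h u v hu hv
      have hζF : ζ ∈ F₁ := (hfix _).2 h
      have h1 := F₁.div_mem (hrat u v hu hv) hζF
      have h3 : ζ * hermForm n F q ((P : Matrix (Fin n) (Fin n) F) *ᵥ u) ((P : Matrix (Fin n) (Fin n) F) *ᵥ v) / ζ =
          1 * hermForm n F q ((P : Matrix (Fin n) (Fin n) F) *ᵥ u) ((P : Matrix (Fin n) (Fin n) F) *ᵥ v) := by
        field_simp
      rwa [h3] at h1
    by_cases hq : Odd q
    · have h2 : (2 : F) ≠ 0 := by
        intro h
        have := (two_eq_zero_iff hF).1 h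
        exact (Nat.not_even_iff_odd.2 hq) this
      have h3 : (ζ ^ q - ζ) * (ζ ^ q + ζ) = 0 := by linear_combination hρ2
      rcases mul_eq_zero.1 h3 with h4 | h4
      · exact hNo.sub₂ F₁ P hq hc (hrat1 (sub_eq_zero.1 h4)) hle
      · have hneg : ζ ^ q = -ζ := by linear_combination h4
        have halt : ∀ u : Fin n → F, (∀ i, u i ∈ F₁) → hermForm n F q ((P : Matrix (Fin n) (Fin n) F) *ᵥ u) ((P : Matrix (Fin n) (Fin n) F) *ᵥ u) = 0 := by
          intro u hu
          set a := hermForm n F q ((P : Matrix (Fin n) (Fin n) F) *ᵥ u) ((P : Matrix (Fin n) (Fin n) F) *ᵥ u) with ha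
          have h5 : ζ * a ∈ F₁ := hrat u u hu hu
          have h6 := (hfix _).1 h5
          have h7 : a ^ q = a := by
            have := hf.herm ((P : Matrix (Fin n) (Fin n) F) *ᵥ u) ((P : Matrix (Fin n) (Fin n) F) *ᵥ u)
            rw [one_mul, frobEquiv_apply] at this
            exact this.symm
          rw [mul_pow, hneg, h7] at h6
          have h8 : 2 * (ζ * a) = 0 := by linear_combination -h6
          exact (mul_eq_zero.1 ((mul_eq_zero.1 h8).resolve_left h2)).resolve_left hζ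
        exact hNo.sub₃ F₁ P ζ (even_of_rat_alt hF P halt) hc hζ (by rw [hneg]; ring) hrat halt hle
    · rw [Nat.not_odd_iff_even] at hq
      have h2 : (2 : F) = 0 := (two_eq_zero_iff hF).2 hq
      have h3 : (ζ ^ q - ζ) ^ 2 = 0 := by
        have h4 : (ζ ^ q - ζ) ^ 2 = ζ ^ q * ζ ^ q + ζ * ζ - 2 * (ζ ^ q * ζ) := by ring
        rw [h4, h2, zero_mul, sub_zero, hρ2]
        have h5 : ζ * ζ + ζ * ζ = 2 * (ζ * ζ) := by ring
        rw [h5, h2, zero_mul]
      have h4 : ζ ^ q = ζ := sub_eq_zero.1 (pow_eq_zero_iff (by norm_num) |>.1 h3)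
      have hr1 := hrat1 h4
      by_cases halt : ∀ u : Fin n → F, (∀ i, u i ∈ F₁) → hermForm n F q ((P : Matrix (Fin n) (Fin n) F) *ᵥ u) ((P : Matrix (Fin n) (Fin n) F) *ᵥ u) = 0
      · refine hNo.sub₃ F₁ P 1 (even_of_rat_alt hF P halt) hc one_ne_zero (by rw [one_pow, one_add_one_eq_two]; exact h2) hr1 halt hle
      · exact noalt_false hF h2 hn hH (irr_of_noclass hF hH hNo) hfix P hr1 hle halt
  · obtain ⟨l, hl, hlr⟩ := exists_scale_odd hF (by omega) hs hodd hc P hζ hrat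
    let P' : GL (Fin n) F := P * Cfsg.Agent.Lib.Asch.XT.sc (Units.mk0 l hl)
    have hP' : (P' : Matrix (Fin n) (Fin n) F) = l • (P : Matrix (Fin n) (Fin n) F) := by
      simp only [P', Units.val_mul, Cfsg.Agent.Lib.Asch.XT.sc_val, Units.val_mk0, Matrix.mul_smul, mul_one]
    refine hNo.sub₁ F₁ s P' hs hodd hc (fun u v hu hv => ?_) fun h hh =>
      Cfsg.Agent.Lib.AschF.Sub.subfield_scale F₁ P l hl (hle hh) P' hP'
    rw [hP', Matrix.smul_mulVec, Matrix.smul_mulVec, hf.sesq.smul_left, hf.sesq.smul_right, frobEquiv_apply, one_mul, ← mul_assoc]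
    exact hlr u v hu hv

end Cfsg.Agent.Lib.AschU.Sub
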