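import Mathlib
import Cfsg.Agent.Lib.AschU.Sub
import Cfsg.Agent.Lib.AschU.Heis
import Cfsg.Agent.Lib.AschF.TenGrp
import Cfsg.Agent.Lib.AschF.Exp3

/-!
# Tensor powers of the three dimensional unitary space over the field with four elements
-/

set_option autoImplicit false

namespace Cfsg.Agent.Lib.AschU.Heis2

open Matrix Module Cfsg Cfsg.Geo
open Cfsg.Agent.Lib.Asch.Forms Cfsg.Agent.Lib.Asch.SC Cfsg.Agent.Lib.AschF.Adj
open Cfsg.Agent.Lib.AschU.Base Cfsg.Agent.Lib.AschU.Sub Cfsg.Agent.Lib.AschU.Heis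
open Cfsg.Agent.Lib.AschF.TenGrp
open Cfsg.Agent.Lib.Ten.Mm
open Cfsg.Agent.Lib.Asch.XT
open Cfsg.Agent.Lib.Geo.SUGen (frobEquiv frobEquiv_apply hermForm_isUnitary)
open Cfsg.Agent.Lib.Geo.Basic (mem_GU_iff)

universe u

variable {F : Type u} [Field F] [Fintype F]

/-- The group spans the matrix algebra. -/
theorem mon_span (h4 : Fintype.card F = 4) : Submodule.span F (matrixSet (monGrp F)) = ⊤ := by
  classical
  have h2 := two_zero h4
  obtain ⟨ω, hω0, hω1⟩ : ∃ ω : F, ω ≠ 0 ∧ ω ≠ 1 := by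
    by_contra hcon
    push Not at hcon
    have h1 : (Finset.univ : Finset F) ⊆ {0, 1} := by
      intro x _
      by_cases hx : x = 0
      · simp [hx]
      · simp [hcon x hx]
    have h3 := Finset.card_le_card h1
    rw [Finset.card_univ, h4] at h3
    have h5 : ({0, 1} : Finset F).card ≤ 2 := Finset.card_le_two
    omega
  have hω3 : ω ^ 3 = 1 := cube_of_ne h4 hω0
  have hω : ω ^ 2 + ω + 1 = 0 := by
    have h1 : (ω - 1) * (ω ^ 2 + ω + 1) = 0 := by linear_combination hω3
    exact (mul_eq_zero.1 h1).resolve_left (sub_ne_zero.2 hω1)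
  let d0 : Fin 3 → F := fun _ => 1
  let d1 : Fin 3 → F := ![1, ω, ω ^ 2]
  let d2 : Fin 3 → F := ![1, ω ^ 2, ω]
  have hd0 : d0 0 * d0 1 * d0 2 = 1 := by simp [d0]
  have hd1 : d1 0 * d1 1 * d1 2 = 1 := by
    simp [d1]
    linear_combination hω3
  have hd2 : d2 0 * d2 1 * d2 2 = 1 := by
    simp [d2]
    linear_combination hω3
  have h30 : ∀ j, d0 j ^ 3 = 1 := by
    intro j
    simp [d0]
  have h31 : ∀ j, d1 j ^ 3 = 1 := by
    intro j
    fin_cases j <;> simp [d1]
    · exact hω3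
    · linear_combination (ω ^ 3 + 1) * hω3
  have h32 : ∀ j, d2 j ^ 3 = 1 := by
    intro j
    fin_cases j <;> simp [d2]
    · linear_combination (ω ^ 3 + 1) * hω3
    · exact hω3
  have hkey : ∀ b j : Fin 3, 1 + d2 b * d1 j + d1 b * d2 j = if j = b then 1 else 0 := by
    intro b j
    fin_cases b <;> fin_cases j <;> simp [d1, d2] <;>
      first
        | linear_combination hω
        | linear_combination h2
        | linear_combination ω ^ 3 * h2
        | linear_combination (1 + ω * (ω - 1)) * hω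
  have hsingle : ∀ b s : Fin 3, Matrix.single (b + s) b (1 : F) ∈ Submodule.span F (matrixSet (monGrp F)) := by
    intro b s
    have hmem : ∀ (d : Fin 3 → F) (hd : d 0 * d 1 * d 2 = 1) (h3 : ∀ j, d j ^ 3 = 1), amat s d ∈ Submodule.span F (matrixSet (monGrp F)) := by
      intro d hd h3
      exact Submodule.subset_span ⟨monMk s d hd h3, monMk_mem s d hd h3, rfl⟩
    have h1 : Matrix.single (b + s) b (1 : F) = amat s d0 + d2 b • amat s d1 + d1 b • amat s d2 := by
      ext i j
      simp only [Matrix.add_apply, Matrix.smul_apply, smul_eq_mul, amat_apply, Matrix.single_apply]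
      by_cases hi : i = j + s
      · rw [if_pos hi, if_pos hi, if_pos hi]
        have h5 := hkey b j
        simp only [d0]
        rw [h5]
        by_cases hjb : j = b
        · subst hjb
          rw [if_pos rfl, if_pos ⟨hi.symm, rfl⟩]
        · rw [if_neg hjb, if_neg (fun h => hjb h.2.symm)]
      · rw [if_neg hi, if_neg hi, if_neg hi]
        simp only [mul_zero, add_zero]
        rw [if_neg]
        rintro ⟨h5, h6⟩
        apply hi
        rw [← h5, h6]
    rw [h1]
    exact Submodule.add_mem _ (Submodule.add_mem _ (hmem _ hd0 h30) (Submodule.smul_mem _ _ (hmem _ hd1 h31)))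
      (Submodule.smul_mem _ _ (hmem _ hd2 h32))
  rw [eq_top_iff]
  intro M _
  rw [Matrix.matrix_eq_sum_single M]
  refine Submodule.sum_mem _ fun i _ => Submodule.sum_mem _ fun j _ => ?_
  have h1 : Matrix.single i j (M i j) = M i j • Matrix.single (j + (i - j)) j (1 : F) := by
    rw [add_sub_cancel, Matrix.smul_single, smul_eq_mul, mul_one]
  rw [h1]
  exact Submodule.smul_mem _ _ (hsingle j (i - j))

/-- The tensor powers of the three dimensional space over the field with four elements lie in the class of groups of symplectic type. -/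
theorem heis_false {n : ℕ} (hF : Fintype.card F = 2 ^ 2) (hn : 2 ≤ n) {H : Subgroup (GL (Fin n) F)} (hH : H ≤ GU n F 2) (hNo : UNoClass n F 2 H)
    {k : ℕ} (e₂ : Fin n ≃ (Fin k → Fin 3)) (P₂ : GL (Fin n) F) {A : (Fin 3 → F) → (Fin 3 → F) → F} (hA : HF (frobEquiv hF) 1 A) {c : F} (hc : c ≠ 0)
    (hlaw : ∀ x y : (Fin k → Fin 3) → F, hermForm n F 2 ((P₂ : Matrix (Fin n) (Fin n) F) *ᵥ (x ∘ e₂)) ((P₂ : Matrix (Fin n) (Fin n) F) *ᵥ (y ∘ e₂)) =
      c * ∑ u, ∑ v, x u * (∏ i, gramMatrix A (u i) (v i)) * frobEquiv hF (y v))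
    (hle : H ≤ tensorWreathSubgroup 3 k e₂ P₂) : False := by
  classical
  have h4 : Fintype.card F = 4 := by rw [hF]; norm_num
  haveI : Nonempty (Fin n) := ⟨⟨0, by omega⟩⟩
  have hf := hf_herm n hF
  have hB := hf_herm (q := 2) 3 hF
  obtain ⟨g₀, hg₀⟩ := exists_isometry_std hF hA
  obtain ⟨P₃, hlaw₃, hact⟩ := Cfsg.Agent.Lib.AschF.WFrame.wr_frame e₂ P₂ hA hB hc hlaw g₀ hg₀ (by norm_num)
  let T : Subgroup (GL (Fin k → Fin 3) F) := tenGrp (monGrp F) k
  let R : Subgroup (GL (Fin n) F) := cjGrp T e₂ P₃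
  have hR3 : ∀ x ∈ R, x ^ 3 = 1 := cj_pow (pow_eq_one fun _ hx => mon_cube hx)
  have hSC : ScC R := cj_scC (scC mon_scC)
  have hAb : ActsAbsolutelyIrreducibly (matrixSet R) := absIrr_of_span (cj_span (span_tenGrp (mon_span h4)))
  have hN : Cfsg.Agent.Lib.Asch.GT.HN H R := by
    intro h hh x hx
    obtain ⟨gs, τ, hgh, hsim⟩ := hact h ((mem_GU_iff n 2 h).1 (hH hh)) (hle hh)
    refine cj_HN (tw gs τ) hgh (fun g hg => tw_conj_mem gs τ (fun i x hx => ?_) hg) hx
    obtain ⟨μ, hμ, hμs⟩ := hsim i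
    -- the multiplier is one
    have hμ1 : μ = 1 := by
      let e₀ : Fin 3 → F := Pi.single 0 1
      have h1 : hermForm 3 F 2 e₀ e₀ = 1 := by
        rw [herm_single, if_pos rfl]
      have h5 := hμs e₀ e₀
      rw [h1, mul_one] at h5
      have h6 := hB.herm ((gs i : Matrix (Fin 3) (Fin 3) F) *ᵥ e₀) ((gs i : Matrix (Fin 3) (Fin 3) F) *ᵥ e₀)
      rw [h5, one_mul, frobEquiv_apply] at h6
      have h7 : μ * (μ - 1) = 0 := by linear_combination -h6
      exact sub_eq_zero.1 ((mul_eq_zero.1 h7).resolve_left hμ)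
    refine mon_normal h4 (fun x y => ?_) hx
    rw [hμs, hμ1, one_mul]
  have hRle : R ≤ similarityGroup (hermForm n F 2) := fun x hx =>
    ⟨1, fun u v => by
      rw [Units.val_one, one_mul]
      exact cj_isom hf.sesq e₂ P₃ hlaw₃ (fun g hg => mon_unitary hg) hx u v⟩
  -- the numerical invariants
  have hcard2 : 2 ≤ Fintype.card (Fin n) := by
    rw [Fintype.card_fin]
    exact hn
  obtain ⟨-, -, -, -, ζ, hζ1, hζR, -⟩ := Cfsg.Agent.Lib.AschF.Top.exists_comm_elt' hcard2 hAb hSC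
  have hg1 : (sc ζ : GL (Fin n) F) ≠ 1 := by
    intro h
    exact hζ1 (sc_inj (ι := Fin n) (by rw [h, map_one]))
  haveI : Fact (Nat.Prime 3) := ⟨Nat.prime_three⟩
  have hord : orderOf (sc ζ : GL (Fin n) F) = 3 := orderOf_eq_prime (hR3 _ hζR) hg1
  have hcen : Nat.card (Subgroup.center R) = 3 := card_center_of hAb hR3 hζR (sc_mem ζ) hord
  have hP : IsPGroup 3 R := fun x => ⟨1, by
    rw [pow_one]
    exact Subtype.ext (hR3 x x.2)⟩
  obtain ⟨m, hm, hcard⟩ := card_of_center hAb hSC Nat.prime_three hP (a := 1) (by rw [hcen, pow_one])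
  have hm1 : 1 ≤ m := by
    rcases Nat.eq_zero_or_pos m with h0 | h0
    · rw [h0, pow_zero, Fintype.card_fin] at hm
      omega
    · exact h0
  have hexp : Monoid.exponent R = 3 * Nat.gcd 2 3 := by
    have hg : Nat.gcd 2 3 = 1 := by norm_num
    rw [hg, mul_one]
    apply Nat.dvd_antisymm
    · apply Monoid.exponent_dvd_of_forall_pow_eq_one
      intro t
      exact Subtype.ext (by simpa using hR3 t t.2)
    · have := Monoid.order_dvd_exponent (⟨sc ζ, hζR⟩ : R)
      rwa [Subgroup.orderOf_mk, hord] at this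
  obtain ⟨p, e, hpp, hpc, hqe, he⟩ := exists_prime_pow hF
  have hp2 : p = 2 := by
    have h1 : p ∣ 2 := by
      rw [hqe]
      exact dvd_pow_self p he.ne'
    exact (Nat.prime_dvd_prime_iff_eq hpp Nat.prime_two).1 h1
  subst hp2
  have hmin : IsMinimalFieldFor (Nat.card (Subgroup.center R)) 2 2 F := by
    refine ⟨Nat.prime_two, hpc, hF, ?_, ?_⟩
    · rw [hcen]
      norm_num
    · intro d hd0 hd2
      have hd : d = 1 := by omega
      subst hd
      rw [hcen]
      norm_num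
  refine hNo.cl6 3 R 2 2 m ⟨Nat.prime_three, hP, fun A hA' hAc => Cfsg.Agent.Lib.AschF.Exp3.cyclic_of_exp3 hAb hSC hR3 A hA' hAc, hexp⟩
    hAb hRle (by norm_num) hmin (Or.inl ⟨by norm_num, hcen, hm1, hcard⟩) (le_normalizer hN)

end Cfsg.Agent.Lib.AschU.Heis2
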