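import Mathlib
import Cfsg.Agent.Lib.AschU.Sub
import Cfsg.Agent.Lib.AschF.WFrame
import Cfsg.Agent.Lib.AschF.TwoF
import Cfsg.Agent.Lib.Geo.UnitaryInSL

/-!
# Tensor powers of two dimensional unitary spaces lie in subfield groups
-/

set_option autoImplicit false

namespace Cfsg.Agent.Lib.AschU.Wr2

open Matrix Module Cfsg Cfsg.Geo
open Cfsg.Agent.Lib.Asch.Forms Cfsg.Agent.Lib.AschF.Adj
open Cfsg.Agent.Lib.AschF.TwoF (fixF mem_fixF)
open Cfsg.Agent.Lib.AschU.Base Cfsg.Agent.Lib.AschU.Sub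
open Cfsg.Agent.Lib.Ten.Mm
open Cfsg.Agent.Lib.Asch.XT (sc sc_val sc_mem)
open Cfsg.Agent.Lib.Geo.SUGen (frobEquiv frobEquiv_apply hermForm_isUnitary)
open Cfsg.Agent.Lib.Geo.Basic (mem_GU_iff)

universe u

variable {F : Type u} [Field F] [Fintype F] {q : ℕ}

/-- The fixed field of the involution has `q` elements. -/
theorem card_fix (hF : Fintype.card F = q ^ 2) : Nat.card (fixF (frobEquiv hF)) = q := by
  classical
  have hq2 := Cfsg.Agent.Lib.HermCount.Field.two_le hF
  let S : Finset F := Finset.univ.filter fun x => x ≠ 0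
  let T : Finset F := Finset.univ.filter fun x => x ≠ 0 ∧ x ^ q = x
  have hS : S.card = q ^ 2 - 1 := by
    have h1 : S = Finset.univ.erase 0 := by
      ext x
      simp [S]
    rw [h1, Finset.card_erase_of_mem (Finset.mem_univ _), Finset.card_univ, hF]
  have hmaps : Set.MapsTo (fun a : F => a ^ (q + 1)) (S : Set F) (T : Set F) := by
    intro a ha
    have ha0 : a ≠ 0 := by simpa [S] using ha
    simp only [T, Finset.coe_filter, Finset.mem_univ, true_and, Set.mem_setOf_eq]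
    refine ⟨pow_ne_zero _ ha0, ?_⟩
    rw [pow_succ a q, mul_pow, Cfsg.Agent.Lib.HermCount.Field.frob_frob hF]
    ring
  have hfib : ∀ t ∈ T, (S.filter fun a => a ^ (q + 1) = t).card = q + 1 := by
    intro t ht
    obtain ⟨ht0, htq⟩ : t ≠ 0 ∧ t ^ q = t := by simpa [T] using ht
    have h1 := Cfsg.Agent.Lib.HermCount.Field.card_norm_fiber hF t htq ht0
    rw [Nat.card_eq_fintype_card, Fintype.card_subtype] at h1
    refine Eq.trans ?_ h1
    congr 1
    ext a
    simp only [S, Finset.mem_filter, Finset.mem_univ, true_and]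
    constructor
    · exact fun h => h.2
    · intro h
      refine ⟨?_, h⟩
      rintro rfl
      rw [zero_pow (by omega)] at h
      exact ht0 h.symm
  have hcount := Finset.card_eq_sum_card_fiberwise hmaps
  rw [Finset.sum_congr rfl hfib, Finset.sum_const, smul_eq_mul, hS] at hcount
  have hT : T.card = q - 1 := by
    obtain ⟨r, rfl⟩ : ∃ r, q = r + 1 := ⟨q - 1, by omega⟩
    have h1 : (r + 1) ^ 2 - 1 = r * (r + 1 + 1) := by
      have : (r + 1) ^ 2 = r * (r + 1 + 1) + 1 := by ring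
      omega
    rw [h1] at hcount
    have := Nat.eq_of_mul_eq_mul_right (by omega) hcount
    simpa using this.symm
  have h1 : Nat.card (fixF (frobEquiv hF)) = (insert (0 : F) T).card := by
    rw [Nat.card_eq_fintype_card]
    refine Fintype.card_of_subtype _ fun x => ?_
    rw [Finset.mem_insert]
    simp only [T, Finset.mem_filter, Finset.mem_univ, true_and, mem_fixF, frobEquiv_apply]
    constructor
    · rintro (rfl | h)
      · rw [zero_pow (by omega)]
      · exact h.2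
    · intro h
      by_cases h0 : x = 0
      · exact Or.inl h0
      · exact Or.inr ⟨h0, h⟩
  rw [h1, Finset.card_insert_of_notMem (by simp [T]), hT]
  omega

/-- The field has order the square of the order of the fixed field. -/
theorem card_eq_sq (hF : Fintype.card F = q ^ 2) : Fintype.card F = Nat.card (fixF (frobEquiv hF)) ^ 2 := by
  rw [card_fix hF, hF]

/-- A non-zero skew element. -/
theorem exists_omega (hF : Fintype.card F = q ^ 2) : ∃ ω : F, ω ≠ 0 ∧ frobEquiv hF ω = -ω := by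
  obtain ⟨x, hx⟩ := Cfsg.Agent.Lib.HermCount.Field.exists_frob_ne hF
  refine ⟨x - x ^ q, sub_ne_zero.2 (Ne.symm hx), ?_⟩
  rw [map_sub, frobEquiv_apply, frobEquiv_apply, Cfsg.Agent.Lib.HermCount.Field.frob_frob hF]
  ring

/-- The model form. -/
def Bw (σ : F ≃+* F) (ω : F) : (Fin 2 → F) → (Fin 2 → F) → F := fun x y => ω * (x 0 * σ (y 1) - x 1 * σ (y 0))

theorem Bw_HF {σ : F ≃+* F} (hinv : ∀ a, σ (σ a) = a) {ω : F} (hω : ω ≠ 0) (hs : σ ω = -ω) : HF σ 1 (Bw σ ω) := by
  refine ⟨⟨?_, ?_, ?_, ?_⟩, ?_, ?_, hinv⟩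
  · intro x y v
    simp only [Bw, Pi.add_apply]
    ring
  · intro c x v
    simp only [Bw, Pi.smul_apply, smul_eq_mul]
    ring
  · intro v x y
    simp only [Bw, Pi.add_apply, map_add]
    ring
  · intro c v x
    simp only [Bw, Pi.smul_apply, smul_eq_mul, map_mul]
    ring
  · intro v hv
    have hex : v 0 ≠ 0 ∨ v 1 ≠ 0 := by
      by_contra hcon
      push Not at hcon
      apply hv
      funext i
      fin_cases i
      · exact hcon.1
      · exact hcon.2
    have h1 : ∀ y : Fin 2 → F, Bw σ ω (Pi.single 0 1) y = ω * σ (y 1) := fun y => by simp [Bw]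
    have h2 : ∀ y : Fin 2 → F, Bw σ ω (Pi.single 1 1) y = - (ω * σ (y 0)) := fun y => by simp [Bw]
    have h3 : ∀ x : Fin 2 → F, Bw σ ω x (Pi.single 1 1) = ω * x 0 := fun x => by simp [Bw]
    have h4 : ∀ x : Fin 2 → F, Bw σ ω x (Pi.single 0 1) = - (ω * x 1) := fun x => by simp [Bw]
    have hσ : ∀ a : F, a ≠ 0 → σ a ≠ 0 := fun a ha h0 => ha (σ.injective (by rw [h0, map_zero]))
    constructor
    · rcases hex with h | h
      · exact ⟨Pi.single 1 1, by rw [h2]; exact neg_ne_zero.2 (mul_ne_zero hω (hσ _ h))⟩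
      · exact ⟨Pi.single 0 1, by rw [h1]; exact mul_ne_zero hω (hσ _ h)⟩
    · rcases hex with h | h
      · exact ⟨Pi.single 1 1, by rw [h3]; exact mul_ne_zero hω h⟩
      · exact ⟨Pi.single 0 1, by rw [h4]; exact neg_ne_zero.2 (mul_ne_zero hω h)⟩
  · intro u v
    simp only [Bw, map_mul, map_sub, hinv, hs, one_mul]
    ring

/-- Similarities of the model form are scalar multiples of rational matrices. -/
theorem Bw_similarity {σ : F ≃+* F} {ω : F} (hω : ω ≠ 0) (t : Matrix (Fin 2) (Fin 2) F) {μ : F}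
    (hμ : ∀ x y, Bw σ ω (t *ᵥ x) (t *ᵥ y) = μ * Bw σ ω x y) (i j : Fin 2) :
    t.det * σ (t i j) = μ * t i j := by
  have h00 := hμ (Pi.single 0 1) (Pi.single 0 1)
  have h01 := hμ (Pi.single 0 1) (Pi.single 1 1)
  have h10 := hμ (Pi.single 1 1) (Pi.single 0 1)
  have h11 := hμ (Pi.single 1 1) (Pi.single 1 1)
  simp only [Matrix.mulVec_single_one, Bw, Matrix.col_apply, Pi.single_eq_same, Pi.single_apply] at h00 h01 h10 h11
  simp only [Fin.isValue, one_ne_zero, zero_ne_one, if_false, map_zero, map_one, mul_zero, mul_one, zero_mul, sub_self, sub_zero, zero_sub, mul_neg] at h00 h01 h10 h11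
  have e00 : t 0 0 * σ (t 1 0) - t 1 0 * σ (t 0 0) = 0 := (mul_eq_zero.1 h00).resolve_left hω
  have e11 : t 0 1 * σ (t 1 1) - t 1 1 * σ (t 0 1) = 0 := (mul_eq_zero.1 h11).resolve_left hω
  have e01 : t 0 0 * σ (t 1 1) - t 1 0 * σ (t 0 1) = μ := by
    apply mul_left_cancel₀ hω
    linear_combination h01
  have e10 : t 1 1 * σ (t 0 0) - t 0 1 * σ (t 1 0) = μ := by
    apply mul_left_cancel₀ hω
    linear_combination -h10
  rw [Matrix.det_fin_two]
  fin_cases i <;> fin_cases j <;> simp only [Fin.zero_eta, Fin.mk_one, Fin.isValue]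
  · linear_combination (t 0 0) * e10 + (t 0 1) * e00
  · linear_combination (t 0 1) * e01 - (t 0 0) * e11
  · linear_combination (t 1 1) * e00 + (t 1 0) * e10
  · linear_combination (t 1 1) * e01 - (t 1 0) * e11

/-- Elements that are scalar multiples of rational ones. -/
theorem mem_subfield_of_scaled {ι : Type} [Fintype ι] [DecidableEq ι] {F₀ : Subfield F} {P g : GL ι F} {c : F} (hc : c ≠ 0)
    (h : ∀ i j, c * ((P⁻¹ * g * P : GL ι F) : Matrix ι ι F) i j ∈ F₀) : g ∈ subfieldSubgroup F₀ P := by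
  rw [Cfsg.Agent.Lib.Geo.RatStruct.mem_subfield_iff]
  let u : Fˣ := Units.mk0 c hc
  have h1 : P⁻¹ * g * P = sc u⁻¹ * (sc u * (P⁻¹ * g * P)) := by
    rw [← mul_assoc, ← map_mul, inv_mul_cancel, map_one, one_mul]
  rw [h1]
  refine Subgroup.mul_mem _ (Subgroup.mem_sup_right (sc_mem _)) (Subgroup.mem_sup_left
    (Cfsg.Agent.Lib.Geo.RatStruct.mem_range_of_entries _ fun i j => ?_))
  rw [Units.val_mul, sc_val, Matrix.smul_mul, one_mul]
  exact h i j

/-- Rationality of a form from the values on the basis. -/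
theorem rat_of_basis {ι : Type} [Fintype ι] [DecidableEq ι] {σ : F ≃+* F} {f : (ι → F) → (ι → F) → F} (hf : Sesq σ f) {F₁ : Subfield F}
    (hσ : ∀ a ∈ F₁, σ a = a) (P : Matrix ι ι F) {ζ : F}
    (h : ∀ a b, ζ * f (P *ᵥ Pi.single a 1) (P *ᵥ Pi.single b 1) ∈ F₁) (u v : ι → F) (hu : ∀ i, u i ∈ F₁) (hv : ∀ i, v i ∈ F₁) :
    ζ * f (P *ᵥ u) (P *ᵥ v) ∈ F₁ := by
  rw [mulVec_eq_sum_single P u, mulVec_eq_sum_single P v, Sesq_sum_left hf, Finset.mul_sum]
  refine F₁.sum_mem fun a _ => ?_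
  rw [Sesq_sum_right hf, Finset.mul_sum]
  refine F₁.sum_mem fun b _ => ?_
  rw [hf.smul_left, hf.smul_right, hσ _ (hv b)]
  have h1 : ζ * (u a * (v b * f (P *ᵥ Pi.single a 1) (P *ᵥ Pi.single b 1))) =
      u a * v b * (ζ * f (P *ᵥ Pi.single a 1) (P *ᵥ Pi.single b 1)) := by ring
  rw [h1]
  exact F₁.mul_mem (F₁.mul_mem (hu a) (hv b)) (h a b)

/-- Tensor powers of two dimensional spaces lie in subfield groups. -/
theorem wr2_false {n : ℕ} (hF : Fintype.card F = q ^ 2) (hn : 2 ≤ n) {H : Subgroup (GL (Fin n) F)} (hH : H ≤ GU n F q) (hNo : UNoClass n F q H)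
    {k : ℕ} (e₂ : Fin n ≃ (Fin k → Fin 2)) (P₂ : GL (Fin n) F) {A : (Fin 2 → F) → (Fin 2 → F) → F} (hA : HF (frobEquiv hF) 1 A) {c : F} (hc : c ≠ 0)
    (hlaw : ∀ x y : (Fin k → Fin 2) → F, hermForm n F q ((P₂ : Matrix (Fin n) (Fin n) F) *ᵥ (x ∘ e₂)) ((P₂ : Matrix (Fin n) (Fin n) F) *ᵥ (y ∘ e₂)) =
      c * ∑ u, ∑ v, x u * (∏ i, gramMatrix A (u i) (v i)) * frobEquiv hF (y v))
    (hle : H ≤ tensorWreathSubgroup 2 k e₂ P₂) : False := by
  classical
  have hf := hf_herm n hF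
  obtain ⟨ω, hω, hs⟩ := exists_omega hF
  have hinv := sigma_sigma hF
  have hB := Bw_HF hinv hω hs
  obtain ⟨g₁, hg₁⟩ := exists_isometry_std hF hA
  obtain ⟨g₂, hg₂⟩ := exists_isometry_std hF hB
  let g₀ : GL (Fin 2) F := g₁ * g₂⁻¹
  have hg₂i : ∀ x, (g₂ : Matrix (Fin 2) (Fin 2) F) *ᵥ (((g₂⁻¹ : GL (Fin 2) F) : Matrix (Fin 2) (Fin 2) F) *ᵥ x) = x := fun x => by
    rw [Matrix.mulVec_mulVec, ← Units.val_mul, mul_inv_cancel, Units.val_one, Matrix.one_mulVec]
  have hg₀ : ∀ x y, A ((g₀ : Matrix (Fin 2) (Fin 2) F) *ᵥ x) ((g₀ : Matrix (Fin 2) (Fin 2) F) *ᵥ y) = Bw (frobEquiv hF) ω x y := by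
    intro x y
    simp only [g₀, Units.val_mul]
    rw [← Matrix.mulVec_mulVec, ← Matrix.mulVec_mulVec, hg₁, ← hg₂, hg₂i, hg₂i]
  obtain ⟨P₃, hlaw₃, hact⟩ := Cfsg.Agent.Lib.AschF.WFrame.wr_frame e₂ P₂ hA hB hc hlaw g₀ hg₀ (by norm_num)
  have hE : ∀ a ∈ fixF (frobEquiv hF), frobEquiv hF a = a := fun a ha => ha
  have hle₃ : H ≤ subfieldSubgroup (fixF (frobEquiv hF)) P₃ := by
    intro h hh
    obtain ⟨gs, τ, hgh, hsim⟩ := hact h ((mem_GU_iff n q h).1 (hH hh)) (hle hh)
    have hslot : ∀ j, ∃ w : F, w ≠ 0 ∧ ∀ a b, w * (gs j : Matrix (Fin 2) (Fin 2) F) a b ∈ fixF (frobEquiv hF) := by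
      intro j
      obtain ⟨μ, hμ, hμs⟩ := hsim j
      set t : Matrix (Fin 2) (Fin 2) F := (gs j : Matrix (Fin 2) (Fin 2) F) with ht
      have hdet : t.det ≠ 0 := by
        have h1 : IsUnit t.det := (Matrix.isUnit_iff_isUnit_det _).1 (gs j).isUnit
        exact h1.ne_zero
      have hrel := Bw_similarity hω t hμs
      let l : F := μ / t.det
      have hl : ∀ a b, frobEquiv hF (t a b) = l * t a b := by
        intro a b
        have := hrel a b
        simp only [l]
        field_simp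
        linear_combination this
      have hl0 : l ≠ 0 := div_ne_zero hμ hdet
      obtain ⟨a₀, b₀, hab⟩ : ∃ a b, t a b ≠ 0 := by
        by_contra hcon
        push Not at hcon
        apply hdet
        rw [Matrix.det_fin_two, hcon, hcon, hcon, hcon]
        ring
      have hll : l * frobEquiv hF l = 1 := by
        have h1 := hinv (t a₀ b₀)
        rw [hl, map_mul, hl] at h1
        apply mul_right_cancel₀ hab
        rw [one_mul]
        linear_combination h1
      obtain ⟨w, hw, hwl⟩ := Cfsg.Agent.Lib.Geo.UnitaryInSL.hilbert90 (frobEquiv hF) (sigma_ne hF) hinv l hll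
      refine ⟨w, hw, fun a b => ?_⟩
      change frobEquiv hF (w * t a b) = w * t a b
      rw [map_mul, hl]
      nth_rw 2 [hwl]
      ring
    choose w hw hwm using hslot
    refine mem_subfield_of_scaled (c := ∏ i, w i) (Finset.prod_ne_zero_iff.2 fun i _ => hw i) fun a b => ?_
    have h1 : ((P₃⁻¹ * h * P₃ : GL (Fin n) F) : Matrix (Fin n) (Fin n) F) =
        ((tw gs τ : GL (Fin k → Fin 2) F) : Matrix (Fin k → Fin 2) (Fin k → Fin 2) F).submatrix e₂ e₂ := by
      rw [mul_assoc P₃⁻¹ h P₃, Units.val_mul, Units.val_mul, hgh, ← mul_assoc, ← Units.val_mul, inv_mul_cancel, Units.val_one, one_mul]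
    rw [h1, Matrix.submatrix_apply, coe_tw, mm_apply, ← Finset.prod_mul_distrib]
    exact prod_mem fun i _ => hwm i _ _
  -- the rational structure
  have hcω : c * ω ^ k ≠ 0 := mul_ne_zero hc (pow_ne_zero _ hω)
  have hrat : IsFormRationalStructure (hermForm n F q) (fixF (frobEquiv hF)) (c * ω ^ k)⁻¹ P₃ := by
    intro u v hu hv
    refine rat_of_basis hf.sesq hE (P₃ : Matrix (Fin n) (Fin n) F) (fun a b => ?_) u v hu hv
    have hsa : ∀ a : Fin n, (Pi.single a 1 : Fin n → F) = ten (fun i => (Pi.single (e₂ a i) 1 : Fin 2 → F)) ∘ e₂ := by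
      intro a
      rw [ten_single (F := F) (e₂ a)]
      funext x
      simp only [Function.comp_apply, Pi.single_apply, e₂.apply_eq_iff_eq]
    rw [hsa a, hsa b, hlaw₃]
    have h1 : (c * ω ^ k)⁻¹ * (c * ∏ i, Bw (frobEquiv hF) ω (Pi.single (e₂ a i) 1) (Pi.single (e₂ b i) 1)) =
        ∏ i, (ω⁻¹ * Bw (frobEquiv hF) ω (Pi.single (e₂ a i) 1) (Pi.single (e₂ b i) 1)) := by
      rw [Finset.prod_mul_distrib, Finset.prod_const, Finset.card_univ, Fintype.card_fin, inv_pow, mul_inv]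
      field_simp
    rw [h1]
    refine prod_mem fun i _ => ?_
    rw [mem_fixF]
    have h0 : ∀ (x y : Fin 2), frobEquiv hF ((Pi.single x 1 : Fin 2 → F) y) = (Pi.single x 1 : Fin 2 → F) y := by
      intro x y
      rw [Pi.single_apply]
      split_ifs
      · exact map_one _
      · exact map_zero _
    simp only [Bw]
    rw [← mul_assoc, inv_mul_cancel₀ hω, one_mul]
    simp only [map_sub, map_mul, h0]
  exact sub_false hF hn hH hNo Nat.prime_two (card_eq_sq hF) P₃ (inv_ne_zero hcω) hrat hle₃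

end Cfsg.Agent.Lib.AschU.Wr2
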