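import Mathlib
import Cfsg.Agent.Lib.AschU.Wr2
import Cfsg.Agent.Lib.AschU.Heis2
import Cfsg.Agent.Lib.AschU.Fld
import Cfsg.Agent.Lib.AschF.Dich
import Cfsg.Agent.Lib.AschF.Sub
import Cfsg.Agent.Lib.AschF.OddA

/-!
# Structures not preserved by a subgroup of the unitary group in no class
-/

set_option autoImplicit false

namespace Cfsg.Agent.Lib.AschU.Str

open Matrix Module Cfsg Cfsg.Geo
open Cfsg.Agent.Lib.Asch.Forms Cfsg.Agent.Lib.AschF.Adj
open Cfsg.Agent.Lib.AschU.Base Cfsg.Agent.Lib.AschU.Sub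
open Cfsg.Agent.Lib.AschF.Dich Cfsg.Agent.Lib.AschF.Inv
open Cfsg.Agent.Lib.Asch.Kr Cfsg.Agent.Lib.NotMax.Tensor Cfsg.Agent.Lib.Asch.Cl
open Cfsg.Agent.Lib.Geo.SUGen (frobEquiv frobEquiv_apply hermForm_isUnitary)
open Cfsg.Agent.Lib.Geo.Basic (mem_GU_iff)
open scoped Kronecker

universe u

variable {F : Type u} [Field F] [Fintype F] {q n : ℕ}

/-- Tensor powers are excluded. -/
theorem wr_false (hF : Fintype.card F = q ^ 2) (hn : 2 ≤ n) {H : Subgroup (GL (Fin n) F)} (hH : H ≤ GU n F q) (hNo : UNoClass n F q H)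
    (a k : ℕ) (e₂ : Fin n ≃ (Fin k → Fin a)) (P₂ : GL (Fin n) F) (A : (Fin a → F) → (Fin a → F) → F) (ε₁ c : F)
    (ha : 2 ≤ a) (hk : 2 ≤ k) (hA : HF (frobEquiv hF) ε₁ A) (hc : c ≠ 0)
    (hlaw : ∀ x y : (Fin k → Fin a) → F, hermForm n F q ((P₂ : Matrix (Fin n) (Fin n) F) *ᵥ (x ∘ e₂)) ((P₂ : Matrix (Fin n) (Fin n) F) *ᵥ (y ∘ e₂)) =
      c * ∑ u, ∑ v, x u * (∏ i, gramMatrix A (u i) (v i)) * frobEquiv hF (y v))
    (hle : H ≤ tensorWreathSubgroup a k e₂ P₂) : False := by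
  classical
  haveI : Nonempty (Fin a) := ⟨⟨0, by omega⟩⟩
  obtain ⟨w, hw0, -, hA'⟩ := exists_rescale (sigma_ne hF) hA
  have hgram : ∀ b d, gramMatrix A b d = w⁻¹ * gramMatrix (fun x y => w * A x y) b d := by
    intro b d
    simp only [gramMatrix]
    field_simp
  have hc' : c * (w⁻¹) ^ k ≠ 0 := mul_ne_zero hc (pow_ne_zero _ (inv_ne_zero hw0))
  have hlaw' : ∀ x y : (Fin k → Fin a) → F, hermForm n F q ((P₂ : Matrix (Fin n) (Fin n) F) *ᵥ (x ∘ e₂)) ((P₂ : Matrix (Fin n) (Fin n) F) *ᵥ (y ∘ e₂)) =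
      (c * (w⁻¹) ^ k) * ∑ u, ∑ v, x u * (∏ i, gramMatrix (fun x y => w * A x y) (u i) (v i)) * frobEquiv hF (y v) := by
    intro x y
    rw [hlaw, mul_assoc]
    congr 1
    rw [Finset.mul_sum]
    refine Finset.sum_congr rfl fun u _ => ?_
    rw [Finset.mul_sum]
    refine Finset.sum_congr rfl fun v _ => ?_
    simp only [hgram, Finset.prod_mul_distrib, Finset.prod_const, Finset.card_univ, Fintype.card_fin]
    simp only [gramMatrix]
    ring
  by_cases ha2 : a = 2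
  · subst ha2
    exact Cfsg.Agent.Lib.AschU.Wr2.wr2_false hF hn hH hNo e₂ P₂ hA' hc' hlaw' hle
  by_cases h23 : q = 2 ∧ a = 3
  · obtain ⟨rfl, rfl⟩ := h23
    exact Cfsg.Agent.Lib.AschU.Heis2.heis_false hF hn hH hNo e₂ P₂ hA' hc' hlaw' hle
  · refine hNo.wr a k e₂ P₂ _ (by omega) hk h23 (pow_of_HF hF hA') ⟨_, hc', fun x y => ?_⟩ hle
    rw [hlaw']
    simp only [frobEquiv_apply]

/-- Rescaling a form. -/
theorem HF_scale {κ : Type} [Fintype κ] [DecidableEq κ] {σ : F ≃+* F} {ε ε' : F} {A : (κ → F) → (κ → F) → F} (hA : HF σ ε A) {w : F} (hw : w ≠ 0)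
    (hε : w * ε = ε' * σ w) : HF σ ε' (fun x y => w * A x y) := by
  refine ⟨⟨fun a b v => ?_, fun c a v => ?_, fun v a b => ?_, fun c v a => ?_⟩, fun v hv => ?_, fun u v => ?_, hA.invol⟩
  · simp only [hA.sesq.add_left]
    ring
  · simp only [hA.sesq.smul_left]
    ring
  · simp only [hA.sesq.add_right]
    ring
  · simp only [hA.sesq.smul_right]
    ring
  · obtain ⟨⟨a, ha⟩, ⟨b, hb⟩⟩ := hA.nd v hv
    exact ⟨⟨a, mul_ne_zero hw ha⟩, ⟨b, mul_ne_zero hw hb⟩⟩
  · rw [hA.herm u v, map_mul]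
    linear_combination (σ (A u v)) * hε

/-- Tensor products are excluded. -/
theorem ten_false (hF : Fintype.card F = q ^ 2) (hn : 2 ≤ n) {H : Subgroup (GL (Fin n) F)} (hH : H ≤ GU n F q) (hNo : UNoClass n F q H)
    (a b : ℕ) (e : Fin n ≃ Fin a × Fin b) (P : GL (Fin n) F)
    (f₁ : (Fin a → F) → (Fin a → F) → F) (f₂ : (Fin b → F) → (Fin b → F) → F) (ε₁ ε₂ : F) (ha : 2 ≤ a) (hb : 2 ≤ b)
    (h₁ : HF (frobEquiv hF) ε₁ f₁) (h₂ : HF (frobEquiv hF) ε₂ f₂) (hε : ε₁ * ε₂ = 1)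
    (hlaw : ∀ x x' y y', hermForm n F q (TT e P x y) (TT e P x' y') = f₁ x x' * f₂ y y')
    (hmem : ∀ h ∈ H, ∃ (α : GL (Fin a) F) (β : GL (Fin b) F),
      (h : Matrix (Fin n) (Fin n) F) * (P : Matrix (Fin n) (Fin n) F) = (P : Matrix (Fin n) (Fin n) F) * kr e α β) : False := by
  classical
  have hf := hf_herm n hF
  haveI : Nonempty (Fin a) := ⟨⟨0, by omega⟩⟩
  obtain ⟨w, hw0, hwσ, hf₁⟩ := exists_rescale (sigma_ne hF) h₁
  have hσw : frobEquiv hF w⁻¹ = (ε₁ * w)⁻¹ := by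
    rw [map_inv₀, hwσ]
  have hε₁ : ε₁ ≠ 0 := left_ne_zero_of_mul (by rw [hε]; exact one_ne_zero)
  have hf₂ : HF (frobEquiv hF) 1 (fun x y => w⁻¹ * f₂ x y) := by
    refine HF_scale h₂ (inv_ne_zero hw0) ?_
    rw [hσw, one_mul]
    field_simp
    linear_combination hε
  have hlaw' : ∀ x x' y y', hermForm n F q (TT e P x y) (TT e P x' y') = (w * f₁ x x') * (w⁻¹ * f₂ y y') := by
    intro x x' y y'
    rw [hlaw]
    field_simp
  rcases lt_trichotomy a b with hab | hab | hab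
  · refine hNo.ten a b e P _ _ ha hab (pow_of_HF hF hf₁) (pow_of_HF hF hf₂)
      (tensor_structure (σf := fun x : F => x ^ q) (fun x => (frobEquiv_apply hF x).symm) hf e P hlaw') fun h hh => ?_
    obtain ⟨α, β, hαβ⟩ := hmem h hh
    exact mem_tensorProductSubgroup e P h α β hαβ
  · subst hab
    obtain ⟨g₁, hg₁⟩ := exists_isometry_std hF hf₁
    obtain ⟨g₂, hg₂⟩ := exists_isometry_std hF hf₂
    let g : GL (Fin a) F := g₂ * g₁⁻¹
    have hg₁i : ∀ x, (g₁ : Matrix (Fin a) (Fin a) F) *ᵥ (((g₁⁻¹ : GL (Fin a) F) : Matrix (Fin a) (Fin a) F) *ᵥ x) = x := fun x => by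
      rw [Matrix.mulVec_mulVec, ← Units.val_mul, mul_inv_cancel, Units.val_one, Matrix.one_mulVec]
    have hg : ∀ x y, w⁻¹ * f₂ ((g : Matrix (Fin a) (Fin a) F) *ᵥ x) ((g : Matrix (Fin a) (Fin a) F) *ᵥ y) = w * f₁ x y := by
      intro x y
      simp only [g, Units.val_mul]
      rw [← Matrix.mulVec_mulVec, ← Matrix.mulVec_mulVec, hg₂, ← hg₁, hg₁i, hg₁i]
    let Kg : GL (Fin n) F := ⟨kr e 1 g, kr e 1 ((g⁻¹ : GL (Fin a) F) : Matrix (Fin a) (Fin a) F),
      by rw [kr_mul, ← Units.val_mul, mul_inv_cancel, Units.val_one, mul_one, kr_one],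
      by rw [kr_mul, ← Units.val_mul, inv_mul_cancel, Units.val_one, mul_one, kr_one]⟩
    let P' : GL (Fin n) F := P * Kg
    have hTT : ∀ x y, TT e P' x y = TT e P x ((g : Matrix (Fin a) (Fin a) F) *ᵥ y) := by
      intro x y
      simp only [TT, P', Units.val_mul]
      rw [← Matrix.mulVec_mulVec]
      congr 1
      change kr e 1 g *ᵥ (pureT x y ∘ e) = _
      rw [kr_mulVec, kronecker_mulVec_pure, Matrix.one_mulVec]
    have hlaw'' : ∀ x x' y y', hermForm n F q (TT e P' x y) (TT e P' x' y') = (w * f₁ x x') * (w * f₁ y y') := by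
      intro x x' y y'
      rw [hTT, hTT, hlaw', hg]
    obtain ⟨c₀, hc₀, hstr⟩ := tensor_structure (σf := frobEquiv hF) (fun _ => rfl) hf e P' hlaw''
    let E := finTwoArrowEquiv (Fin a)
    let e₂ : Fin n ≃ (Fin 2 → Fin a) := e.trans E.symm
    refine wr_false hF hn hH hNo a 2 e₂ P' _ 1 c₀ ha (le_refl 2) hf₁ hc₀ ?_ ?_
    · intro x y
      have h1 := hstr (x ∘ E.symm) (y ∘ E.symm)
      have hx : (x ∘ E.symm) ∘ e = x ∘ e₂ := rfl
      have hy : (y ∘ E.symm) ∘ e = y ∘ e₂ := rfl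
      rw [hx, hy] at h1
      rw [h1]
      simp only [formOfGram]
      have hsum : ∀ φ : Fin a × Fin a → F, ∑ p, φ p = ∑ u : Fin 2 → Fin a, φ (E u) := fun φ => (Equiv.sum_comp E φ).symm
      rw [hsum]
      congr 1
      refine Finset.sum_congr rfl fun u _ => ?_
      rw [hsum]
      refine Finset.sum_congr rfl fun v _ => ?_
      simp only [Function.comp_apply, Equiv.symm_apply_apply, Matrix.kroneckerMap_apply, Fin.prod_univ_two]
      rfl
    · intro h hh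
      obtain ⟨α, β, hαβ⟩ := hmem h hh
      refine Cfsg.Agent.Lib.AschF.OddD.mem_wreath_of_kr' e P' h α (g⁻¹ * β * g) ?_
      have hβ : (g : Matrix (Fin a) (Fin a) F) * ((g⁻¹ * β * g : GL (Fin a) F) : Matrix (Fin a) (Fin a) F) = (β : Matrix (Fin a) (Fin a) F) * (g : Matrix (Fin a) (Fin a) F) := by
        rw [← Units.val_mul, ← Units.val_mul]
        congr 1
        group
      calc (h : Matrix (Fin n) (Fin n) F) * (P' : Matrix (Fin n) (Fin n) F) = ((h : Matrix (Fin n) (Fin n) F) * (P : Matrix (Fin n) (Fin n) F)) * kr e 1 g := by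
            simp only [P', Units.val_mul, mul_assoc]
            rfl
        _ = (P : Matrix (Fin n) (Fin n) F) * (kr e α β * kr e 1 g) := by rw [hαβ, mul_assoc]
        _ = (P : Matrix (Fin n) (Fin n) F) * (kr e 1 g * kr e α ((g⁻¹ * β * g : GL (Fin a) F) : Matrix (Fin a) (Fin a) F)) := by
            rw [kr_mul, kr_mul, hβ, mul_one, one_mul]
        _ = (P' : Matrix (Fin n) (Fin n) F) * kr e α ((g⁻¹ * β * g : GL (Fin a) F) : Matrix (Fin a) (Fin a) F) := by
            simp only [P', Units.val_mul, mul_assoc]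
            rfl
  · let e' : Fin n ≃ Fin b × Fin a := e.trans (Equiv.prodComm _ _)
    have hTT : ∀ y x, TT e' P y x = TT e P x y := by
      intro y x
      simp only [TT]
      congr 1
      funext i
      simp [e', pureT, mul_comm]
    refine hNo.ten b a e' P _ _ hb hab (pow_of_HF hF hf₂) (pow_of_HF hF hf₁)
      (tensor_structure (σf := fun x : F => x ^ q) (fun x => (frobEquiv_apply hF x).symm) hf e' P (fun y y' x x' => by
        rw [hTT, hTT, hlaw', mul_comm])) fun h hh => ?_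
    obtain ⟨α, β, hαβ⟩ := hmem h hh
    refine mem_tensorProductSubgroup e' P h β α ?_
    rw [hαβ]
    congr 1
    ext i j
    simp only [kr_apply, e', Equiv.trans_apply, Equiv.prodComm_apply, Prod.fst_swap, Prod.snd_swap]
    ring

/-- The form-theoretic data. -/
theorem noStr (hF : Fintype.card F = q ^ 2) (hn : 2 ≤ n) {H : Subgroup (GL (Fin n) F)} (hH : H ≤ GU n F q) (hNo : UNoClass n F q H) :
    NoStr (hermForm n F q) (frobEquiv hF) 1 H where
  irr := irr_of_noclass hF hH hNo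
  dec := fun t k D hD hle _ => hNo.dec t k D hD hle
  pair := fun k D hD hts hle => by
    have h1 := Cfsg.Agent.Lib.AschF.OddA.card_eq_of_decomp hD
    rw [Fintype.card_fin] at h1
    exact hNo.pair k D h1.symm hD hts hle
  fld := fun r K hr hK hadj hle => by
    rcases hr.eq_two_or_odd' with rfl | hodd
    · exact Cfsg.Agent.Lib.AschU.Fld.no_fld_two hF (by omega) K hK hadj
    · exact hNo.fld r K hr hodd hK hadj hle
  ten := fun a b e P f₁ f₂ ε₁ ε₂ ha hb h₁ h₂ hε hlaw hmem => ten_false hF hn hH hNo a b e P f₁ f₂ ε₁ ε₂ ha hb h₁ h₂ hε hlaw hmem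

end Cfsg.Agent.Lib.AschU.Str
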