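import Mathlib
import Cfsg.Agent.Lib.AschU.Str
import Cfsg.Agent.Lib.AschF.Top
import Cfsg.Agent.Lib.AschF.OddE
import Cfsg.Agent.Lib.Asch.Main

/-!
# Subgroups of the unitary group in no geometric class
-/

set_option autoImplicit false

namespace Cfsg.Agent.Lib.AschU.Main

open Matrix Module Cfsg Cfsg.Geo
open Cfsg.Agent.Lib.Asch.Forms Cfsg.Agent.Lib.Asch.SC Cfsg.Agent.Lib.AschF.Adj
open Cfsg.Agent.Lib.AschU.Base Cfsg.Agent.Lib.AschU.Sub Cfsg.Agent.Lib.AschU.Str
open Cfsg.Agent.Lib.AschF.Dich Cfsg.Agent.Lib.AschF.Top Cfsg.Agent.Lib.AschF.Sub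
open Cfsg.Agent.Lib.AschF.TwoF
open Cfsg.Agent.Lib.Asch.XT Cfsg.Agent.Lib.Asch.GT Cfsg.Agent.Lib.Asch.FieldSub Cfsg.Agent.Lib.Asch.FStep
open Cfsg.Agent.Lib.Asch.Main (Rf Rf_HN le_Rf Rf_ScC)
open Cfsg.Agent.Lib.Geo.SUGen (frobEquiv frobEquiv_apply hermForm_isUnitary)
open Cfsg.Agent.Lib.Geo.Basic (mem_GU_iff)

universe u

variable {F : Type u} [Field F] [Fintype F] {q n : ℕ}

/-- Normal absolutely irreducible subgroups are not realisable over subfields. -/
theorem hSf_of (hF : Fintype.card F = q ^ 2) (hn : 2 ≤ n) {H : Subgroup (GL (Fin n) F)} (hH : H ≤ GU n F q) (hNo : UNoClass n F q H) :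
    ∀ P₀ : Subgroup (GL (Fin n) F), P₀ ≤ H → HN H P₀ → ActsAbsolutelyIrreducibly (matrixSet P₀) →
      ∀ F₀ : Subfield F, F₀ ≠ ⊤ → ¬ RealisableOver F₀ (matrixSet P₀) := by
  intro P₀ hP₀ hN hA F₀ hF₀ hR
  haveI : Nonempty (Fin n) := ⟨⟨0, by omega⟩⟩
  have hf := hf_herm n hF
  obtain ⟨B, F₁, p, s, k, hp, hc, -, hs, hcardF, hF₁, hHB, hB⟩ := subfield_mem H P₀ hA hN F₀ hF₀ hR
  haveI : Fact p.Prime := ⟨hp⟩
  have hfix₀ : FixesForm (matrixSet P₀) (hermForm n F q) := by
    rintro _ ⟨x, hx, rfl⟩ u v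
    exact (mem_GU_iff n q x).1 (hH (hP₀ hx)) u v
  obtain ⟨ζ, hζ, hR'⟩ := rational_zeta hf.sesq hf.nd hA hfix₀ B F₁ p k hF₁ hB
  exact sub_false hF hn hH hNo hs hcardF B⁻¹ hζ hR' hHB

/-- Characteristic abelian subgroups are cyclic. -/
theorem cyc_of_char (hF : Fintype.card F = q ^ 2) (hn : 2 ≤ n) {H : Subgroup (GL (Fin n) F)} (hH : H ≤ GU n F q) (hNo : UNoClass n F q H)
    {R : Subgroup (GL (Fin n) F)} (hRH : R ≤ H) (hR : HN H R) (A : Subgroup R) (hA : A.Characteristic) (hAc : IsMulCommutative A) : IsCyclic A := by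
  haveI : Nonempty (Fin n) := ⟨⟨0, by omega⟩⟩
  have hf := hf_herm n hF
  have hfix : ∀ g ∈ H, ∀ u v, hermForm n F q ((g : Matrix (Fin n) (Fin n) F) *ᵥ u) ((g : Matrix (Fin n) (Fin n) F) *ᵥ v) = hermForm n F q u v :=
    fun g hg u v => (mem_GU_iff n q g).1 (hH hg) u v
  set A' : Subgroup (GL (Fin n) F) := A.map R.subtype with hA'
  have hAHN : HN H A' := by
    rintro h hh _ ⟨a, ha, rfl⟩
    let φ : R ≃* R :=
      { toFun := fun x => ⟨h * x * h⁻¹, hR h hh x x.2⟩
        invFun := fun x => ⟨h⁻¹ * x * h, by simpa using hR h⁻¹ (H.inv_mem hh) x x.2⟩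
        left_inv := fun x => by
          apply Subtype.ext
          simp [mul_assoc]
        right_inv := fun x => by
          apply Subtype.ext
          simp [mul_assoc]
        map_mul' := fun x y => by
          apply Subtype.ext
          simp [mul_assoc] }
    have h1 := hA.fixed φ
    have h2 : φ a ∈ A := by
      have : a ∈ A.comap φ.toMonoidHom := by
        rw [h1]
        exact ha
      exact this
    exact ⟨φ a, h2, rfl⟩
  have hle : A' ≤ scalars (Fin n) F := by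
    rcases normal_dichotomy_form hf H hfix (noStr hF hn hH hNo) A' (by
      rintro _ ⟨a, -, rfl⟩
      exact hRH a.2) hAHN with h | h
    · exact h
    · intro x hx
      apply mem_scalars_of_comm h
      rintro y ⟨b, hb, rfl⟩
      obtain ⟨a, ha, rfl⟩ := hx
      have := hAc.is_comm.comm (⟨a, ha⟩ : A) ⟨b, hb⟩
      exact congrArg (fun t : A => (t : R).1) this
  exact cyclic_of_scalars (R.subtype.comp A.subtype)
    (Subtype.val_injective.comp Subtype.val_injective) fun t => hle ⟨t, t.2, rfl⟩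

/-- Proper subfields. -/
theorem fixSub_ne_top {p E d : ℕ} [hp : Fact p.Prime] [hc : CharP F p] (hE : Fintype.card F = p ^ E) (hd0 : 0 < d) (hdE : d < E) :
    fixSub (F := F) p d ≠ ⊤ := by
  have hp2 : 2 ≤ p := hp.out.two_le
  have hlt : p ^ d < p ^ E := Nat.pow_lt_pow_right (by omega) hdE
  have hpd : 2 ≤ p ^ d := le_trans hp2 (Nat.le_self_pow (by omega) p)
  intro htop
  have h1 : ∀ x : Fˣ, x ^ (p ^ d - 1) = 1 := by
    intro x
    have h2 : (x : F) ∈ fixSub (F := F) p d := by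
      rw [htop]
      exact Subfield.mem_top _
    rw [mem_fixSub] at h2
    apply Units.ext
    rw [Units.val_pow_eq_pow_val, Units.val_one]
    have h3 : (x : F) ^ (p ^ d - 1) * x = 1 * x := by
      rw [← pow_succ, Nat.sub_add_cancel (by omega), h2, one_mul]
    exact mul_right_cancel₀ x.ne_zero h3
  rw [FiniteField.forall_pow_eq_one_iff, hE] at h1
  have := Nat.le_of_dvd (by omega) h1
  omega

/-- The odd case of the symplectic type alternative. -/
theorem cl6_odd (hF : Fintype.card F = q ^ 2) (hn : 2 ≤ n) {H : Subgroup (GL (Fin n) F)} (hH : H ≤ GU n F q) (hNo : UNoClass n F q H)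
    {r : ℕ} {R : Subgroup (GL (Fin n) F)} (hr : r.Prime) (hRH : R ≤ H) (hRN : HN H R) (hA : ActsAbsolutelyIrreducibly (matrixSet R)) (hSC : ScC R)
    (hodd : Odd r) (hx : ∀ x ∈ R, x ^ r = 1) : False := by
  classical
  haveI : Nonempty (Fin n) := ⟨⟨0, by omega⟩⟩
  have hcard2 : 2 ≤ Fintype.card (Fin n) := by
    rw [Fintype.card_fin]
    exact hn
  obtain ⟨-, -, -, -, c, hc1, hcR, -⟩ := exists_comm_elt' hcard2 hA hSC
  have hg1 : (sc c : GL (Fin n) F) ≠ 1 := by
    intro h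
    exact hc1 (sc_inj (ι := Fin n) (by rw [h, map_one]))
  haveI : Fact r.Prime := ⟨hr⟩
  have hord : orderOf (sc c : GL (Fin n) F) = r := orderOf_eq_prime (hx _ hcR) hg1
  have hcen : Nat.card (Subgroup.center R) = r := card_center_of hA hx hcR (sc_mem c) hord
  have hoc : orderOf c = r := by
    rw [← hord]
    exact (orderOf_injective sc sc_inj c).symm
  have hrq : r ∣ Fintype.card F - 1 := by
    rw [← hoc, ← Fintype.card_units]
    exact orderOf_dvd_card
  obtain ⟨p, hpc⟩ := CharP.exists F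
  obtain ⟨E, hpp, hE⟩ := FiniteField.card F p
  haveI : Fact p.Prime := ⟨hpp⟩
  have hSf := hSf_of hF hn hH hNo
  have hmin : ∀ d : ℕ, 0 < d → d < E → ¬ r ∣ p ^ d - 1 := by
    intro d hd0 hdE hzd
    have hne := fixSub_ne_top hE hd0 hdE
    have hreal : RealisableOver (fixSub (F := F) p d) (matrixSet R) := by
      refine realisable_of_roots hA hSC hrq hx _ fun a ha => ?_
      rw [mem_fixSub]
      obtain ⟨c', hc'⟩ := hzd
      have hp2 : 2 ≤ p := hpp.two_le
      have hpd : 2 ≤ p ^ d := le_trans hp2 (Nat.le_self_pow (by omega) p)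
      have h1 : p ^ d = r * c' + 1 := by omega
      rw [h1, pow_succ, pow_mul, ha, one_pow, one_mul]
    exact hSf R hRH hRN hA _ hne hreal
  have hP : IsPGroup r R := fun x => ⟨1, by
    rw [pow_one]
    exact Subtype.ext (hx x x.2)⟩
  obtain ⟨m, hm, hcard⟩ := card_of_center hA hSC hr hP (a := 1) (by rw [hcen, pow_one])
  have hm1 : 1 ≤ m := by
    rcases Nat.eq_zero_or_pos m with h0 | h0
    · rw [h0, pow_zero, Fintype.card_fin] at hm
      omega
    · exact h0
  have hexp : Monoid.exponent R = r * Nat.gcd 2 r := by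
    have hg : Nat.gcd 2 r = 1 := (Nat.coprime_two_left.2 hodd)
    rw [hg, mul_one]
    apply Nat.dvd_antisymm
    · apply Monoid.exponent_dvd_of_forall_pow_eq_one
      intro t
      exact Subtype.ext (by simpa using hx t t.2)
    · have := Monoid.order_dvd_exponent (⟨sc c, hcR⟩ : R)
      rwa [Subgroup.orderOf_mk, hord] at this
  have hrp : r ≠ p := by
    rintro rfl
    rw [hE] at hrq
    have h1 : r ∣ r ^ (E : ℕ) := dvd_pow_self r E.ne_zero
    have h2 : 1 ≤ r ^ (E : ℕ) := Nat.one_le_pow _ _ hr.pos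
    have h3 := (Nat.dvd_sub h1 hrq)
    rw [Nat.sub_sub_self h2] at h3
    exact hr.one_lt.ne' (Nat.dvd_one.1 h3)
  have hsim : R ≤ similarityGroup (hermForm n F q) := fun x hx' =>
    ⟨1, fun u v => by
      rw [Units.val_one, one_mul]
      exact (mem_GU_iff n q x).1 (hH (hRH hx')) u v⟩
  refine hNo.cl6 r R p E m ⟨hr, hP, fun A' hA' hAc => cyc_of_char hF hn hH hNo hRH hRN A' hA' hAc, hexp⟩ hA hsim hrp
    ⟨hpp, hpc, hE, ?_, ?_⟩ (Or.inl ⟨hodd, hcen, hm1, ?_⟩) (le_normalizer hRN)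
  · rw [hcen, ← hE]
    exact hrq
  · rw [hcen]
    exact hmin
  · rw [hcard]

/-- The group generated with the scalars of order dividing four has characteristic abelian subgroups cyclic. -/
theorem cyc_of_char_Rf (hF : Fintype.card F = q ^ 2) (hn : 2 ≤ n) {H : Subgroup (GL (Fin n) F)} (hH : H ≤ GU n F q) (hNo : UNoClass n F q H)
    {R : Subgroup (GL (Fin n) F)} (hRH : R ≤ H) (hR : HN H R) (A : Subgroup (Rf R)) (hA : A.Characteristic) (hAc : IsMulCommutative A) : IsCyclic A := by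
  classical
  haveI : Nonempty (Fin n) := ⟨⟨0, by omega⟩⟩
  have hf := hf_herm n hF
  have hfix : ∀ g ∈ H, ∀ u v, hermForm n F q ((g : Matrix (Fin n) (Fin n) F) *ᵥ u) ((g : Matrix (Fin n) (Fin n) F) *ᵥ v) = hermForm n F q u v :=
    fun g hg u v => (mem_GU_iff n q g).1 (hH hg) u v
  have hR' := Rf_HN hR
  set A' : Subgroup (GL (Fin n) F) := A.map (Rf R).subtype with hA'
  have hAHN : HN H A' := by
    rintro h hh _ ⟨a, ha, rfl⟩
    let φ : Rf R ≃* Rf R :=
      { toFun := fun x => ⟨h * x * h⁻¹, hR' h hh x x.2⟩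
        invFun := fun x => ⟨h⁻¹ * x * h, by simpa using hR' h⁻¹ (H.inv_mem hh) x x.2⟩
        left_inv := fun x => by
          apply Subtype.ext
          simp [mul_assoc]
        right_inv := fun x => by
          apply Subtype.ext
          simp [mul_assoc]
        map_mul' := fun x y => by
          apply Subtype.ext
          simp [mul_assoc] }
    have h1 := hA.fixed φ
    have h2 : φ a ∈ A := by
      have : a ∈ A.comap φ.toMonoidHom := by
        rw [h1]
        exact ha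
      exact this
    exact ⟨φ a, h2, rfl⟩
  have hcomm : ∀ a ∈ A', ∀ b ∈ A', a * b = b * a := by
    rintro _ ⟨a, ha, rfl⟩ _ ⟨b, hb, rfl⟩
    have := hAc.is_comm.comm (⟨a, ha⟩ : A) ⟨b, hb⟩
    exact congrArg (fun t : A => (t : Rf R).1) this
  -- the elements of `H` which are scalar multiples of elements of the subgroup
  let N₁ : Subgroup (GL (Fin n) F) :=
    { carrier := {g | g ∈ H ∧ ∃ a ∈ A', ∃ c : Fˣ, g = a * sc c}
      mul_mem' := by
        rintro _ _ ⟨hx, a, ha, c, rfl⟩ ⟨hy, b, hb, d, rfl⟩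
        refine ⟨H.mul_mem hx hy, a * b, A'.mul_mem ha hb, c * d, ?_⟩
        rw [map_mul]
        have := sc_comm c b
        calc a * sc c * (b * sc d) = a * (sc c * b) * sc d := by simp only [mul_assoc]
          _ = a * b * (sc c * sc d) := by rw [this]; simp only [mul_assoc]
      one_mem' := ⟨H.one_mem, 1, A'.one_mem, 1, by simp⟩
      inv_mem' := by
        rintro _ ⟨hx, a, ha, c, rfl⟩
        refine ⟨H.inv_mem hx, a⁻¹, A'.inv_mem ha, c⁻¹, ?_⟩
        rw [_root_.mul_inv_rev, map_inv]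
        have := sc_comm c⁻¹ a⁻¹
        rwa [map_inv] at this }
  have hN₁H : N₁ ≤ H := fun x hx => hx.1
  have hN₁N : HN H N₁ := by
    rintro h hh _ ⟨hx, a, ha, c, rfl⟩
    refine ⟨H.mul_mem (H.mul_mem hh hx) (H.inv_mem hh), h * a * h⁻¹, hAHN h hh a ha, c, ?_⟩
    have := sc_comm c h⁻¹
    simp only [mul_assoc]
    rw [this]
  have hN₁comm : ∀ x ∈ N₁, ∀ y ∈ N₁, x * y = y * x := by
    rintro _ ⟨-, a, ha, c, rfl⟩ _ ⟨-, b, hb, d, rfl⟩
    have h1 := sc_comm c b
    have h2 := sc_comm d a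
    have h3 := hcomm a ha b hb
    have h4 := sc_comm c (sc d : GL (Fin n) F)
    calc a * sc c * (b * sc d) = a * (sc c * b) * sc d := by simp only [mul_assoc]
      _ = a * b * (sc c * sc d) := by rw [h1]; simp only [mul_assoc]
      _ = b * a * (sc d * sc c) := by rw [h3, h4]
      _ = b * (a * sc d) * sc c := by simp only [mul_assoc]
      _ = b * (sc d * a) * sc c := by rw [h2]
      _ = b * sc d * (a * sc c) := by simp only [mul_assoc]
  have hN₁Z : N₁ ≤ scalars (Fin n) F := by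
    rcases normal_dichotomy_form hf H hfix (noStr hF hn hH hNo) N₁ hN₁H hN₁N with h | h
    · exact h
    · intro x hx
      apply mem_scalars_of_comm h
      intro y hy
      exact hN₁comm x hx y hy
  have hle : A' ≤ scalars (Fin n) F := by
    rintro _ ⟨a, ha, rfl⟩
    obtain ⟨x, hx, c, hc, hac⟩ := a.2
    have h1 : x ∈ N₁ := by
      refine ⟨hRH hx, a.1, ⟨a, ha, rfl⟩, c⁻¹, ?_⟩
      rw [hac, map_inv]
      group
    have h2 := hN₁Z h1
    change a.1 ∈ scalars (Fin n) F
    rw [hac]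
    exact Subgroup.mul_mem _ h2 (sc_mem c)
  exact cyclic_of_scalars ((Rf R).subtype.comp A.subtype)
    (Subtype.val_injective.comp Subtype.val_injective) fun t => hle ⟨t, t.2, rfl⟩

/-- The even case of the symplectic type alternative. -/
theorem cl6_two (hF : Fintype.card F = q ^ 2) (hn : 2 ≤ n) {H : Subgroup (GL (Fin n) F)} (hH : H ≤ GU n F q) (hNo : UNoClass n F q H)
    {R : Subgroup (GL (Fin n) F)} (hRH : R ≤ H) (hRN : HN H R) (hA : ActsAbsolutelyIrreducibly (matrixSet R)) (hSC : ScC R)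
    (h2 : ∀ x ∈ R, ∃ m : Fˣ, m ^ 2 = 1 ∧ x ^ 2 = sc m) : False := by
  classical
  haveI : Nonempty (Fin n) := ⟨⟨0, by omega⟩⟩
  have hcard2 : 2 ≤ Fintype.card (Fin n) := by
    rw [Fintype.card_fin]
    exact hn
  have hSf := hSf_of hF hn hH hNo
  obtain ⟨x, hx, y, hy, c, hc1, hcR, hyx⟩ := exists_comm_elt' hcard2 hA hSC
  obtain ⟨m, hm, hxm⟩ := h2 x hx
  have hx2c : ∀ g, x ^ 2 * g = g * x ^ 2 := by
    intro g
    rw [hxm]
    exact sc_comm m g
  have hc2 : (sc c : GL (Fin n) F) ^ 2 = 1 := Cfsg.Agent.Lib.Asch.XS.gp_comm_pow (sc_comm c) hyx hx2c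
  have hcc : c ^ 2 = 1 := sc_inj (ι := Fin n) (by rw [map_pow, hc2, map_one])
  have hcF : (c : F) ^ 2 = 1 := by
    have := congrArg Units.val hcc
    simpa using this
  have hc1F : (c : F) ≠ 1 := fun h => hc1 (Units.ext h)
  have hcn : (c : F) = -1 := by
    have h3 : ((c : F) - 1) * ((c : F) + 1) = 0 := by linear_combination hcF
    rcases mul_eq_zero.1 h3 with h4 | h4
    · exact absurd (sub_eq_zero.1 h4) hc1F
    · linear_combination h4
  have hne : (-1 : F) ≠ 1 := by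
    rw [← hcn]
    exact hc1F
  have h2F : (2 : F) ≠ 0 := by
    intro h
    apply hne
    linear_combination -h
  have hqodd : Odd q := by
    rw [← Nat.not_even_iff_odd]
    intro h
    exact h2F ((two_eq_zero_iff hF).2 h)
  -- the square root of `-1`
  obtain ⟨i, hi⟩ : ∃ i : F, i ^ 2 = -1 := by
    have h1 : IsSquare (-1 : F) := by
      rw [FiniteField.isSquare_neg_one_iff, hF]
      obtain ⟨t, rfl⟩ := hqodd
      have : (2 * t + 1) ^ 2 = 4 * (t * t + t) + 1 := by ring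
      omega
    obtain ⟨i, hi⟩ := h1
    exact ⟨i, by rw [hi]; ring⟩
  have hi0 : i ≠ 0 := by
    rintro rfl
    rw [zero_pow (by norm_num)] at hi
    exact one_ne_zero (α := F) (by linear_combination hi)
  let u : Fˣ := Units.mk0 i hi0
  have hu : (u : F) ^ 2 = -1 := hi
  have hu4 : u ^ 4 = 1 := by
    apply Units.ext
    rw [Units.val_pow_eq_pow_val, Units.val_one]
    calc (u : F) ^ 4 = ((u : F) ^ 2) ^ 2 := by ring
      _ = 1 := by rw [hu]; ring
  have hx4R : ∀ g ∈ R, g ^ 4 = 1 := by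
    intro a ha
    obtain ⟨m', hm', ham⟩ := h2 a ha
    calc a ^ 4 = (a ^ 2) ^ 2 := by rw [← pow_mul]
      _ = 1 := by rw [ham, ← map_pow, hm', map_one]
  have hx4 : ∀ g ∈ Rf R, g ^ 4 = 1 := by
    rintro _ ⟨a, ha, d, hd, rfl⟩
    have hcomm : Commute a (sc d) := (sc_comm d a).symm
    rw [hcomm.mul_pow, ← map_pow, hd, map_one, mul_one]
    exact hx4R a ha
  have hA' : ActsAbsolutelyIrreducibly (matrixSet (Rf R)) := absIrr_mono (le_Rf R) hA
  have hSC' : ScC (Rf R) := Rf_ScC hSC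
  have huR : (sc u : GL (Fin n) F) ∈ Rf R := ⟨1, R.one_mem, u, hu4, by simp⟩
  haveI : Fact (Nat.Prime 2) := ⟨Nat.prime_two⟩
  have hu2 : u ^ 2 ≠ 1 := by
    intro h
    have h3 : (u : F) ^ 2 = 1 := by
      have := congrArg (Units.val) h
      simpa using this
    rw [hu] at h3
    exact hne h3
  have hoc : orderOf u = 4 := orderOf_eq_prime_pow (p := 2) (n := 1) (by simpa using hu2) (by simpa using hu4)
  have hord : orderOf (sc u : GL (Fin n) F) = 4 := by
    rw [← hoc]
    exact orderOf_injective sc sc_inj u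
  have hcen : Nat.card (Subgroup.center (Rf R)) = 4 := card_center_of hA' hx4 huR (sc_mem u) hord
  have hrq : 4 ∣ Fintype.card F - 1 := by
    rw [← hoc, ← Fintype.card_units]
    exact orderOf_dvd_card
  obtain ⟨p, hpc⟩ := CharP.exists F
  obtain ⟨E, hpp, hE⟩ := FiniteField.card F p
  haveI : Fact p.Prime := ⟨hpp⟩
  have hp2 : p ≠ 2 := by
    rintro rfl
    apply h2F
    exact_mod_cast CharP.cast_eq_zero F 2
  have hpodd : Odd p := hpp.odd_of_ne_two hp2
  have hmin : ∀ d : ℕ, 0 < d → d < E → ¬ 4 ∣ p ^ d - 1 := by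
    intro d hd0 hdE hzd
    have hne := fixSub_ne_top hE hd0 hdE
    have hreal : RealisableOver (fixSub (F := F) p d) (matrixSet R) := by
      refine realisable_of_roots hA hSC hrq hx4R _ fun a ha => ?_
      rw [mem_fixSub]
      obtain ⟨c', hc'⟩ := hzd
      have hp2 : 2 ≤ p := hpp.two_le
      have hpd : 2 ≤ p ^ d := le_trans hp2 (Nat.le_self_pow (by omega) p)
      have h1 : p ^ d = 4 * c' + 1 := by omega
      rw [h1, pow_succ, pow_mul, ha, one_pow, one_mul]
    exact hSf R hRH hRN hA _ hne hreal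
  have h4p2 : 4 ∣ p ^ 2 - 1 := by
    obtain ⟨k, rfl⟩ := hpodd
    have : (2 * k + 1) ^ 2 - 1 = 4 * (k * (k + 1)) := by
      have : (2 * k + 1) ^ 2 = 4 * (k * (k + 1)) + 1 := by ring
      omega
    rw [this]
    exact Dvd.intro _ rfl
  have hE2 : (E : ℕ) ≤ 2 := by
    by_contra hcon
    exact hmin 2 (by norm_num) (by omega) h4p2
  -- the degree is even
  obtain ⟨p', e', hpp', hpc', hqe, he'⟩ := exists_prime_pow hF
  have hpp'' : p' = p := CharP.eq F hpc' hpc
  subst hpp''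
  have hEe : (E : ℕ) = e' * 2 := by
    have h3 : p' ^ (E : ℕ) = p' ^ (e' * 2) := by
      rw [← hE, hF, hqe, pow_mul]
    exact Nat.pow_right_injective hpp.two_le h3
  have hE2' : (E : ℕ) = 2 := by omega
  have hP : IsPGroup 2 (Rf R) := fun x => ⟨2, by
    exact Subtype.ext (by simpa using hx4 x x.2)⟩
  obtain ⟨m', hm', hcard⟩ := card_of_center hA' hSC' Nat.prime_two hP (a := 2) (by rw [hcen]; rfl)
  have hexp : Monoid.exponent (Rf R) = 2 * Nat.gcd 2 2 := by
    rw [Nat.gcd_self]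
    apply Nat.dvd_antisymm
    · apply Monoid.exponent_dvd_of_forall_pow_eq_one
      intro t
      exact Subtype.ext (by simpa using hx4 t t.2)
    · have := Monoid.order_dvd_exponent (⟨sc u, huR⟩ : Rf R)
      rwa [Subgroup.orderOf_mk, hord] at this
  have hsim : Rf R ≤ similarityGroup (hermForm n F q) := by
    rintro _ ⟨a, ha, d, hd, rfl⟩
    have hf := hf_herm n hF
    have hdd : d.1 * frobEquiv hF d.1 ≠ 0 := mul_ne_zero d.ne_zero (fun h0 => d.ne_zero ((frobEquiv hF).injective (by rw [h0, map_zero])))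
    refine ⟨Units.mk0 _ hdd, fun u' v' => ?_⟩
    rw [Units.val_mul, sc_val, Matrix.mul_smul, mul_one, Matrix.smul_mulVec, Matrix.smul_mulVec, hf.sesq.smul_left, hf.sesq.smul_right,
      (mem_GU_iff n q a).1 (hH (hRH ha)), Units.val_mk0]
    ring
  refine hNo.cl6 2 (Rf R) p' 2 m' ⟨Nat.prime_two, hP, fun A' hA'' hAc => cyc_of_char_Rf hF hn hH hNo hRH hRN A' hA'' hAc, hexp⟩ hA' hsim hp2.symm
    ⟨hpp, hpc, ?_, ?_, ?_⟩ (Or.inr ⟨rfl, rfl, hcen, ?_⟩) (le_normalizer (Rf_HN hRN))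
  · rw [hE, hE2']
  · rw [hcen, ← hE2', ← hE]
    exact hrq
  · rw [hcen]
    intro d hd0 hd2
    exact hmin d hd0 (by omega)
  · rw [hcard]

/-- The main theorem. -/
theorem main_of_noclass (hF : Fintype.card F = q ^ 2) (hn : 2 ≤ n) {H : Subgroup (GL (Fin n) F)} (hH : H ≤ GU n F q) (hNo : UNoClass n F q H) :
    InUnitaryResidualClass H := by
  classical
  haveI : Nonempty (Fin n) := ⟨⟨0, by omega⟩⟩
  have hcard2 : 2 ≤ Fintype.card (Fin n) := by
    rw [Fintype.card_fin]
    exact hn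
  have hf := hf_herm n hF
  have hfix : ∀ g ∈ H, ∀ u v, hermForm n F q ((g : Matrix (Fin n) (Fin n) F) *ᵥ u) ((g : Matrix (Fin n) (Fin n) F) *ᵥ v) = hermForm n F q u v :=
    fun g hg u v => (mem_GU_iff n q g).1 (hH hg) u v
  have hS := noStr hF hn hH hNo
  have hSf := hSf_of hF hn hH hNo
  rcases aschF hcard2 hf H hfix hS (fun a k e₂ P₂ A ε₁ c ha hk hA hc hlaw _ hle => wr_false hF hn hH hNo a k e₂ P₂ A ε₁ c ha hk hA hc hlaw hle) hSf with
    ⟨r, R, hr, hRH, hRN, hA, hSC, ⟨-, h2⟩ | ⟨hodd, hx⟩⟩ | ⟨P, hP⟩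
  · exact (cl6_two hF hn hH hNo hRH hRN hA hSC h2).elim
  · exact (cl6_odd hF hn hH hNo hr hRH hRN hA hSC hodd hx).elim
  · have hPfix : FixesForm (matrixSet P) (hermForm n F q) := by
      rintro _ ⟨x, hx, rfl⟩ u v
      exact hfix x (hP.le hx) u v
    have htop : fixF (frobEquiv hF) ≠ ⊤ := fixF_ne_top (sigma_ne hF)
    refine ⟨P, hP, ?_, ?_⟩
    · rintro ⟨Q, hQ, hQfix⟩
      have hS₀ : Sesq (RingEquiv.refl F) (QuadraticMap.polar Q) :=
        ⟨hQ.polar_bilinear.add_left, hQ.polar_bilinear.smul_left, hQ.polar_bilinear.add_right, hQ.polar_bilinear.smul_right⟩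
      have hpf : FixesForm (matrixSet P) (QuadraticMap.polar Q) := by
        intro s hs u v
        simp only [QuadraticMap.polar]
        rw [← Matrix.mulVec_add, hQfix s hs, hQfix s hs, hQfix s hs]
      exact hP.no_subfield _ htop (realisable_of_two_forms (sigma_ne hF) (sigma_sigma hF) hS₀ hQ.nondegenerate hf.sesq hf.nd hP.absIrred hpf hPfix)
    · rintro ⟨g, hg, hgfix⟩
      have hS₀ : Sesq (RingEquiv.refl F) g :=
        ⟨hg.bilinear.add_left, hg.bilinear.smul_left, hg.bilinear.add_right, hg.bilinear.smul_right⟩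
      exact hP.no_subfield _ htop (realisable_of_two_forms (sigma_ne hF) (sigma_sigma hF) hS₀ hg.nondegenerate hf.sesq hf.nd hP.absIrred hgfix hPfix)

end Cfsg.Agent.Lib.AschU.Main
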